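import Cfsg.Agent.H880.UMain
import Cfsg.Agent.H189.TraceFix

/-!
**The partial trace on `End (U ⊗ W)`** (`U ⊗ W` is the space of `a × b` matrices): `lm c` is `c ⊗ 1`, `pt x` the partial
trace of `x` over `W`, `pf x = pt x ⊗ 1`. `pf` commutes with the conjugation by tensors (`pf_cj`), and conversely `g` is a
tensor if `pf` commutes with the conjugation by `g` and `a < b` (`isTens_of_pf`).
-/

set_option autoImplicit false
set_option linter.unusedSectionVars false

namespace Cfsg.Agent.H924.PT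

open Module Matrix Cfsg.Agent.H880

variable {F : Type*} [Field F] {a b : ℕ}

/-- Endomorphisms of `U ⊗ W`. -/
abbrev EM (a b : ℕ) (F : Type*) [Field F] := Mat a b F →ₗ[F] Mat a b F

/-- The operator `c ⊗ 1`. -/
def lm (c : (Fin a → F) →ₗ[F] (Fin a → F)) : EM a b F where
  toFun X := fun i j => c (fun k => X k j) i
  map_add' X Y := by
    funext i j
    show c ((fun k => X k j) + fun k => Y k j) i = _
    rw [map_add]; rfl
  map_smul' s X := by
    funext i j
    show c (s • fun k => X k j) i = _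
    rw [map_smul]; rfl

theorem lm_apply (c : (Fin a → F) →ₗ[F] (Fin a → F)) (X : Mat a b F) (i : Fin a) (j : Fin b) :
    lm c X i j = c (fun k => X k j) i := rfl

theorem lm_pure (c : (Fin a → F) →ₗ[F] (Fin a → F)) (u : Fin a → F) (w : Fin b → F) :
    lm c (vecMulVec u w) = vecMulVec (c u) w := by
  funext i j
  rw [lm_apply]
  have h : (fun k => (vecMulVec u w : Mat a b F) k j) = w j • u := by
    funext k; simp [vecMulVec_apply, mul_comm]
  rw [h, map_smul]
  simp [vecMulVec_apply, mul_comm]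

/-- The `j`-th column. -/
def col (j : Fin b) : Mat a b F →ₗ[F] (Fin a → F) where
  toFun X := fun i => X i j
  map_add' _ _ := rfl
  map_smul' _ _ := rfl

theorem col_apply (j : Fin b) (X : Mat a b F) (i : Fin a) : col j X i = X i j := rfl

/-- The partial trace over `W`. -/
def pt (x : EM a b F) : (Fin a → F) →ₗ[F] (Fin a → F) :=
  ∑ l : Fin b, col l ∘ₗ x ∘ₗ pureL (Pi.single l 1)

theorem pt_apply (x : EM a b F) (u : Fin a → F) (i : Fin a) :
    pt x u i = ∑ l : Fin b, x (vecMulVec u (Pi.single l 1)) i l := by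
  rw [pt, LinearMap.sum_apply, Finset.sum_apply]
  rfl

theorem pt_add (x y : EM a b F) : pt (x + y) = pt x + pt y := by
  apply LinearMap.ext; intro u
  funext i
  rw [LinearMap.add_apply, Pi.add_apply, pt_apply, pt_apply, pt_apply, ← Finset.sum_add_distrib]
  rfl

theorem pt_smul (s : F) (x : EM a b F) : pt (s • x) = s • pt x := by
  apply LinearMap.ext; intro u
  funext i
  rw [LinearMap.smul_apply, Pi.smul_apply, pt_apply, pt_apply, smul_eq_mul, Finset.mul_sum]
  rfl

theorem lm_add (x y : (Fin a → F) →ₗ[F] (Fin a → F)) : (lm (x + y) : EM a b F) = lm x + lm y := rfl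

theorem lm_smul (s : F) (x : (Fin a → F) →ₗ[F] (Fin a → F)) : (lm (s • x) : EM a b F) = s • lm x := rfl

/-- The map `x ↦ pt x ⊗ 1`. -/
def pf : EM a b F →ₗ[F] EM a b F where
  toFun x := lm (pt x)
  map_add' x y := by rw [pt_add, lm_add]
  map_smul' s x := by rw [pt_smul, lm_smul]; rfl

theorem pf_apply (x : EM a b F) : pf x = lm (pt x) := rfl

/-- The coordinates of a matrix. -/
def coordE (a b : ℕ) (F : Type*) [Field F] : Mat a b F ≃ₗ[F] (Fin a × Fin b → F) where
  toFun X := fun p => X p.1 p.2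
  invFun x := fun i j => x (i, j)
  map_add' _ _ := rfl
  map_smul' _ _ := rfl
  left_inv _ := rfl
  right_inv _ := rfl

theorem coordE_symm_single (i : Fin a) (j : Fin b) :
    (coordE a b F).symm (Pi.single (i, j) 1) = vecMulVec (Pi.single i 1) (Pi.single j 1) := by
  funext k l
  show (Pi.single (i, j) (1 : F) : Fin a × Fin b → F) (k, l) = (Pi.single i (1 : F) : Fin a → F) k * (Pi.single j (1 : F) : Fin b → F) l
  simp only [Pi.single_apply, Prod.mk.injEq]
  by_cases h1 : k = i <;> by_cases h2 : l = j <;> simp [h1, h2]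

theorem trace_eq (x : EM a b F) :
    LinearMap.trace F (Mat a b F) x = ∑ i : Fin a, ∑ j : Fin b, x (vecMulVec (Pi.single i 1) (Pi.single j 1)) i j := by
  classical
  rw [LinearMap.trace_eq_matrix_trace F (Basis.ofEquivFun (coordE a b F)), Matrix.trace, Fintype.sum_prod_type]
  refine Finset.sum_congr rfl fun i _ => Finset.sum_congr rfl fun j _ => ?_
  rw [Matrix.diag_apply, LinearMap.toMatrix_apply, Basis.coe_ofEquivFun, Basis.ofEquivFun_repr_apply]
  show x ((coordE a b F).symm (Pi.single (i, j) 1)) i j = _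
  rw [coordE_symm_single]

theorem trace_comp_lm (x : EM a b F) (c : (Fin a → F) →ₗ[F] (Fin a → F)) :
    LinearMap.trace F (Mat a b F) (x ∘ₗ lm c) = LinearMap.trace F (Fin a → F) (pt x ∘ₗ c) := by
  classical
  rw [trace_eq, LinearMap.trace_eq_matrix_trace F (Pi.basisFun F (Fin a)), Matrix.trace]
  refine Finset.sum_congr rfl fun i _ => ?_
  rw [Matrix.diag_apply, LinearMap.toMatrix_apply, Pi.basisFun_apply, Pi.basisFun_repr, LinearMap.comp_apply, pt_apply]
  refine Finset.sum_congr rfl fun j _ => ?_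
  rw [LinearMap.comp_apply, lm_pure]

theorem eq_of_trace {x y : (Fin a → F) →ₗ[F] (Fin a → F)}
    (h : ∀ c : (Fin a → F) →ₗ[F] (Fin a → F), LinearMap.trace F (Fin a → F) (x ∘ₗ c) = LinearMap.trace F (Fin a → F) (y ∘ₗ c)) :
    x = y := by
  classical
  apply LinearMap.toMatrix'.injective
  rw [Matrix.ext_iff_trace_mul_right]
  intro C
  have h1 := h (Matrix.toLin' C)
  rw [LinearMap.trace_eq_matrix_trace F (Pi.basisFun F (Fin a)), LinearMap.trace_eq_matrix_trace F (Pi.basisFun F (Fin a))] at h1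
  have h2 : ∀ z : (Fin a → F) →ₗ[F] (Fin a → F), LinearMap.toMatrix (Pi.basisFun F (Fin a)) (Pi.basisFun F (Fin a)) (z ∘ₗ Matrix.toLin' C)
      = LinearMap.toMatrix' z * C := by
    intro z
    show LinearMap.toMatrix' (z ∘ₗ Matrix.toLin' C) = _
    rw [LinearMap.toMatrix'_comp, LinearMap.toMatrix'_toLin']
  rw [h2, h2] at h1
  exact h1

/-- Conjugation on endomorphisms. -/
def cj : (Mat a b F ≃ₗ[F] Mat a b F) →* Module.End F (EM a b F) where
  toFun g :=
    { toFun := fun x => (g : Mat a b F →ₗ[F] Mat a b F) ∘ₗ x ∘ₗ (g.symm : Mat a b F →ₗ[F] Mat a b F)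
      map_add' := fun x y => by rw [LinearMap.add_comp, LinearMap.comp_add]
      map_smul' := fun s x => by rw [LinearMap.smul_comp, LinearMap.comp_smul, RingHom.id_apply] }
  map_one' := by
    ext1 x
    rfl
  map_mul' g h := by
    ext1 x
    rfl

theorem cj_apply (g : Mat a b F ≃ₗ[F] Mat a b F) (x : EM a b F) (X : Mat a b F) : cj g x X = g (x (g.symm X)) := rfl

theorem cj_comp (g : Mat a b F ≃ₗ[F] Mat a b F) (x y : EM a b F) : cj g (x ∘ₗ y) = cj g x ∘ₗ cj g y := by
  ext1 X
  show g (x (y (g.symm X))) = g (x (g.symm (g (y (g.symm X)))))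
  rw [LinearEquiv.symm_apply_apply]

theorem trace_cj (g : Mat a b F ≃ₗ[F] Mat a b F) (x : EM a b F) :
    LinearMap.trace F (Mat a b F) (cj g x) = LinearMap.trace F (Mat a b F) x := by
  have h := LinearMap.trace_conj' x g
  rw [← h]
  rfl

theorem cj_lm {g : Mat a b F ≃ₗ[F] Mat a b F} {y : (Fin a → F) ≃ₗ[F] (Fin a → F)} {z : (Fin b → F) ≃ₗ[F] (Fin b → F)}
    (hg : ∀ u w, g (vecMulVec u w) = vecMulVec (y u) (z w)) (c : (Fin a → F) →ₗ[F] (Fin a → F)) :
    cj g (lm c) = lm ((y : (Fin a → F) →ₗ[F] (Fin a → F)) ∘ₗ c ∘ₗ (y.symm : (Fin a → F) →ₗ[F] (Fin a → F))) := by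
  apply ext_pure
  intro u w
  have h1 : g.symm (vecMulVec u w) = vecMulVec (y.symm u) (z.symm w) := by
    rw [LinearEquiv.symm_apply_eq, hg, LinearEquiv.apply_symm_apply, LinearEquiv.apply_symm_apply]
  rw [cj_apply, h1, lm_pure, hg, lm_pure, LinearEquiv.apply_symm_apply]
  rfl

theorem pt_cj {g : Mat a b F ≃ₗ[F] Mat a b F} {y : (Fin a → F) ≃ₗ[F] (Fin a → F)} {z : (Fin b → F) ≃ₗ[F] (Fin b → F)}
    (hg : ∀ u w, g (vecMulVec u w) = vecMulVec (y u) (z w)) (x : EM a b F) :
    pt (cj g x) = (y : (Fin a → F) →ₗ[F] (Fin a → F)) ∘ₗ pt x ∘ₗ (y.symm : (Fin a → F) →ₗ[F] (Fin a → F)) := by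
  apply eq_of_trace
  intro c
  set c' : (Fin a → F) →ₗ[F] (Fin a → F) :=
    (y.symm : (Fin a → F) →ₗ[F] (Fin a → F)) ∘ₗ c ∘ₗ (y : (Fin a → F) →ₗ[F] (Fin a → F)) with hc'
  have h1 : cj g (lm c') = lm c := by
    rw [cj_lm hg, hc']
    congr 1
    apply LinearMap.ext; intro u
    show y (y.symm (c (y (y.symm u)))) = c u
    rw [LinearEquiv.apply_symm_apply, LinearEquiv.apply_symm_apply]
  rw [← trace_comp_lm, ← h1, ← cj_comp, trace_cj, trace_comp_lm]
  have h2 := LinearMap.trace_conj' (pt x ∘ₗ c') y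
  rw [← h2]
  congr 1
  apply LinearMap.ext; intro u
  show y (pt x (y.symm (c (y (y.symm u))))) = y (pt x (y.symm (c u)))
  rw [LinearEquiv.apply_symm_apply]

/-- **`pf` commutes with the conjugation by tensors.** -/
theorem pf_cj {g : Mat a b F ≃ₗ[F] Mat a b F} (hg : IsTens g) (x : EM a b F) : pf (cj g x) = cj g (pf x) := by
  obtain ⟨y, z, hyz⟩ := hg
  rw [pf_apply, pf_apply, pt_cj hyz, cj_lm hyz]

/-- the columns of the image of `lm c` are in the image of `c` -/
def rangeLm (c : (Fin a → F) →ₗ[F] (Fin a → F)) :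
    LinearMap.range (lm c : EM a b F) ≃ₗ[F] (Fin b → LinearMap.range c) where
  toFun X := fun j => ⟨col j X.1, by
    obtain ⟨Y, hY⟩ := X.2
    rw [← hY]
    exact ⟨col j Y, rfl⟩⟩
  map_add' _ _ := rfl
  map_smul' _ _ := rfl
  invFun x := ⟨fun i j => (x j).1 i, by
    choose v hv using fun j => (x j).2
    refine ⟨fun i j => v j i, ?_⟩
    funext i j
    exact congrFun (hv j) i⟩
  left_inv _ := rfl
  right_inv _ := rfl

theorem finrank_range_lm (c : (Fin a → F) →ₗ[F] (Fin a → F)) :
    finrank F (LinearMap.range (lm c : EM a b F)) = b * finrank F (LinearMap.range c) := by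
  rw [LinearEquiv.finrank_eq (rangeLm c), Module.finrank_pi_fintype, Finset.sum_const, Finset.card_univ, Fintype.card_fin,
    smul_eq_mul]

theorem finrank_range_cj (g : Mat a b F ≃ₗ[F] Mat a b F) (x : EM a b F) :
    finrank F (LinearMap.range (cj g x)) = finrank F (LinearMap.range x) := by
  have h : LinearMap.range (cj g x) = (LinearMap.range x).map (g : Mat a b F →ₗ[F] Mat a b F) := by
    ext X
    constructor
    · rintro ⟨Y, rfl⟩
      exact ⟨x (g.symm Y), ⟨_, rfl⟩, rfl⟩
    · rintro ⟨_, ⟨Y, rfl⟩, rfl⟩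
      refine ⟨g Y, ?_⟩
      rw [cj_apply, LinearEquiv.symm_apply_apply]
      rfl
  rw [h, LinearEquiv.finrank_map_eq]

/-- **If `pf` commutes with the conjugation by `g`, then `g` is a tensor.** -/
theorem isTens_of_pf (ha : 1 ≤ a) (hab : a < b) {g : Mat a b F ≃ₗ[F] Mat a b F} (h : ∀ x : EM a b F, pf (cj g x) = cj g (pf x)) :
    IsTens g := by
  classical
  apply isTens_of_pres ha hab
  intro u w
  by_cases hu : u = 0
  · subst hu
    refine ⟨0, 0, ?_⟩
    rw [zero_pure, map_zero, zero_pure]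
  -- a projection onto the line of `u`
  obtain ⟨φ, hφ⟩ : ∃ φ : (Fin a → F) →ₗ[F] F, φ u = 1 := by
    obtain ⟨i, hi⟩ := Function.ne_iff.mp hu
    refine ⟨(u i)⁻¹ • LinearMap.proj i, ?_⟩
    show (u i)⁻¹ * u i = 1
    exact inv_mul_cancel₀ hi
  let E : (Fin a → F) →ₗ[F] (Fin a → F) := φ.smulRight u
  have hE : ∀ v, E v = φ v • u := fun v => rfl
  let j0 : Fin b := ⟨0, by omega⟩
  let x : EM a b F := pureL (Pi.single j0 1) ∘ₗ E ∘ₗ col j0
  have hx : pt x = E := by
    apply LinearMap.ext; intro v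
    funext i
    rw [pt_apply, Finset.sum_eq_single j0]
    · show (E (fun k => v k * (Pi.single j0 (1 : F) : Fin b → F) j0)) i * (Pi.single j0 (1 : F) : Fin b → F) j0 = _
      rw [Pi.single_eq_same, mul_one]
      have h9 : (fun k => v k * (1 : F)) = v := by
        funext k
        rw [mul_one]
      rw [h9]
    · intro l _ hl
      show _ * (Pi.single j0 (1 : F) : Fin b → F) l = _
      rw [Pi.single_eq_of_ne hl, mul_zero]
    · intro h; exact absurd (Finset.mem_univ _) h
  have h1 : cj g (lm E) = lm (pt (cj g x)) := by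
    have := h x
    rw [pf_apply, pf_apply, hx] at this
    exact this.symm
  set E' := pt (cj g x) with hE'
  have hrE : finrank F (LinearMap.range E) ≤ 1 := by
    have h2 : LinearMap.range E ≤ Submodule.span F {u} := by
      rintro _ ⟨v, rfl⟩
      rw [hE]
      exact Submodule.smul_mem _ _ (Submodule.mem_span_singleton_self u)
    exact (Submodule.finrank_mono h2).trans (by rw [finrank_span_singleton hu])
  have hrE' : finrank F (LinearMap.range E') ≤ 1 := by
    have h2 := finrank_range_cj g (lm E)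
    rw [h1, finrank_range_lm, finrank_range_lm] at h2
    have hb : 0 < b := by omega
    have h3 : finrank F (LinearMap.range E') = finrank F (LinearMap.range E) := Nat.eq_of_mul_eq_mul_left hb h2
    omega
  obtain ⟨u', hu'⟩ : ∃ u' : Fin a → F, ∀ v, ∃ s : F, E' v = s • u' := by
    obtain ⟨⟨u', hu'r⟩, hu'⟩ := finrank_le_one_iff.mp hrE'
    refine ⟨u', fun v => ?_⟩
    obtain ⟨s, hs⟩ := hu' ⟨E' v, ⟨v, rfl⟩⟩
    exact ⟨s, (congrArg Subtype.val hs).symm⟩
  have h2 : g (vecMulVec u w) = lm E' (g (vecMulVec u w)) := by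
    rw [← h1, cj_apply, LinearEquiv.symm_apply_apply, lm_pure, hE, hφ, one_smul]
  choose s hs using hu'
  refine ⟨u', fun j => s (col j (g (vecMulVec u w))), ?_⟩
  rw [h2]
  funext i j
  have h3 : lm E' (g (vecMulVec u w)) i j = E' (col j (g (vecMulVec u w))) i := rfl
  rw [h3, hs, Pi.smul_apply, smul_eq_mul, mul_comm, ← h2]
  rfl

end Cfsg.Agent.H924.PT
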