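import Cfsg.Agent.H876.FrameSmall
import Cfsg.Agent.H880.TI

/-!
**Orthonormal frames in `SU_6(q)`, `q` odd**: the monomial group is maximal. The diagonal involutions `diag(-1,-1,1,1,1,1)`
are TI (`OddFrame.mono_of_conj`), so vectors with two zeros whose images have two zeros are moved like under a monomial
element (`transfer`); applied to the vectors supported on three coordinates this makes the six coordinate functionals a
Steiner triple system on six points, which does not exist.
-/

set_option autoImplicit false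
set_option linter.unusedSectionVars false

namespace Cfsg.Agent.H924.SixFrame

open Cfsg Cfsg.Agent.LieClassical.HermBasic Cfsg.Agent.LieClassical.HermSiegel Cfsg.Agent.H927
open Cfsg.Agent.H876.MonoBasic Cfsg.Agent.H876.OddFrame

variable {F : Type*} [Field F] {n q : ℕ}

/-- The monomial subgroup. -/
def monoG (n : ℕ) (F : Type*) [Field F] (q : ℕ) : Subgroup (SU n F q) where
  carrier := {g | IsMono g}
  one_mem' := isMono_one
  mul_mem' := fun h h' => IsMono.mul h h'
  inv_mem' := fun h => IsMono.inv h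

/-- The stabiliser of a vector. -/
def stabV (v : Fin n → F) : Subgroup (SU n F q) where
  carrier := {g | act g v = v}
  one_mem' := act_one v
  mul_mem' := by
    intro g h hg hh
    show act (g * h) v = v
    rw [act_mul, show act h v = v from hh, show act g v = v from hg]
  inv_mem' := by
    intro g hg
    show act g⁻¹ v = v
    have h1 : act g v = v := hg
    calc act g⁻¹ v = act g⁻¹ (act g v) := by rw [h1]
      _ = v := by rw [← act_mul, inv_mul_cancel, act_one]

section Tr

variable [Fintype F] (hF : Fintype.card F = q ^ 2)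
variable {X : Subgroup (SU n F q)} (hG : ∀ g : SU n F q, IsMono g → g ∈ X)
  (hstar : ∀ y ∈ X, ∀ (k : Fin n) (c : F), act y (Pi.single k 1) = c • Pi.single k 1 → IsMono y)
  (h2 : (2 : F) ≠ 0)
include hF hG hstar h2

/-- **Transfer**: vectors with two zeros whose images have two zeros. -/
theorem transfer (hn : 5 ≤ n) (hq : 3 ≤ q) {g : SU n F q} (hg : g ∈ X) {v : Fin n → F} {i j k l : Fin n} (hij : i ≠ j)
    (hkl : k ≠ l) (hi : v i = 0) (hj : v j = 0) (hk : act g v k = 0) (hl : act g v l = 0) :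
    ∃ h : SU n F q, IsMono h ∧ act g v = act h v := by
  obtain ⟨b, hb⟩ := exists_B (F := F) hF hij
  obtain ⟨b', hb'⟩ := exists_B (F := F) hF hkl
  have : Finite X := inferInstance
  obtain ⟨m, hm, h, hh, e⟩ := H880.ti_transfer_one Nat.prime_two X (monoG n F q) (fun x hx => hG x hx)
    {b | ∃ i j : Fin n, i ≠ j ∧ IsB b i j} (by
      rintro s ⟨i, j, _, hs⟩
      exact ⟨hs.isDiag.isMono, 1, by rw [pow_one, sq, hs.mul_self]⟩) (by
      rintro s ⟨i, j, hij, hs⟩ x hx hm
      have h1 := mono_of_conj hF hG hstar h2 hn hq (X.inv_mem hx) hij hs (by rw [inv_inv]; exact hm)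
      exact isMono_inv_iff.mp h1)
    (stabV v) (s := b) (t := b') ⟨i, j, hij, hb⟩ ⟨k, l, hkl, hb'⟩ (g := g⁻¹) (X.inv_mem hg) (by
      show act b v = v
      funext a
      rw [hb]
      split_ifs with h
      · rcases h with rfl | rfl
        · rw [hi, neg_zero]
        · rw [hj, neg_zero]
      · rfl) (by
      show act (g⁻¹ * b' * g⁻¹⁻¹) v = v
      have h1 : act b' (act g v) = act g v := by
        funext a
        rw [hb']
        split_ifs with h
        · rcases h with rfl | rfl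
          · rw [hk, neg_zero]
          · rw [hl, neg_zero]
        · rfl
      rw [inv_inv, act_mul, act_mul, h1, ← act_mul, inv_mul_cancel, act_one])
  have hm' : act m v = v := hm
  refine ⟨h⁻¹, IsMono.inv hh, ?_⟩
  have h3 : g = h⁻¹ * m⁻¹ := by rw [← inv_inv g, e, mul_inv_rev]
  have h4 : act m⁻¹ v = v := by
    calc act m⁻¹ v = act m⁻¹ (act m v) := by rw [hm']
      _ = v := by rw [← act_mul, inv_mul_cancel, act_one]
  rw [h3, act_mul, h4]

end Tr

open scoped Classical in
/-- The number of zeros is invariant under monomial elements. -/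
theorem card_zeros {h : SU n F q} (hh : IsMono h) (v : Fin n → F) :
    (Finset.univ.filter fun m => act h v m = 0).card = (Finset.univ.filter fun m => v m = 0).card := by
  classical
  obtain ⟨σ, d, hd0, hd⟩ := IsMono.exists_perm hh
  symm
  apply Finset.card_bij (fun m _ => σ m)
  · intro m hm
    rw [Finset.mem_filter] at hm ⊢
    exact ⟨Finset.mem_univ _, by rw [act_perm_apply hd, hm.2, mul_zero]⟩
  · intro a _ b _ hab
    exact σ.injective hab
  · intro m hm
    refine ⟨σ.symm m, ?_, σ.apply_symm_apply m⟩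
    rw [Finset.mem_filter] at hm ⊢
    refine ⟨Finset.mem_univ _, ?_⟩
    have h1 := act_perm_apply hd v (σ.symm m)
    rw [Equiv.apply_symm_apply, hm.2] at h1
    exact (mul_eq_zero.mp h1.symm).resolve_left (hd0 _)

section Six

variable [Fintype F] (hF : Fintype.card F = q ^ 2) {X : Subgroup (SU 6 F q)} (hG : ∀ g : SU 6 F q, IsMono g → g ∈ X)
  (hstar : ∀ y ∈ X, ∀ (k : Fin 6) (c : F), act y (Pi.single k 1) = c • Pi.single k 1 → IsMono y)
  (h2 : (2 : F) ≠ 0)
include hF hG hstar h2

open scoped Classical in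
/-- A non-zero vector supported on `0, 1, 2` whose image vanishes in `k, l`: all of `v 0`, `v 1`, `v 2` are non-zero and
the image has exactly three zeros. -/
theorem three_zeros (hq : 3 ≤ q) {g : SU 6 F q} (hg : g ∈ X) (hgm : ¬ IsMono g) {k l : Fin 6} (hkl : k ≠ l)
    {v : Fin 6 → F} (hv : v ≠ 0) (h3 : v 3 = 0) (h4 : v 4 = 0) (h5 : v 5 = 0) (hk : act g v k = 0) (hl : act g v l = 0) :
    v 0 ≠ 0 ∧ (Finset.univ.filter fun m => act g v m = 0).card = 3 := by
  classical
  have hgm' : ¬ IsMono g⁻¹ := fun h => hgm (isMono_inv_iff.mp h)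
  have key : ∀ i j m : Fin 6, i ≠ j → (∀ a, a ≠ i → a ≠ j → a = m ∨ a = 3 ∨ a = 4 ∨ a = 5) → v m ≠ 0 := by
    intro i j m hij hall hm
    refine no_two_zeros hF hG hstar h2 (by norm_num) hq (X.inv_mem hg) hgm' hij hkl (u := v) hv ?_ (by rw [inv_inv]; exact hk)
      (by rw [inv_inv]; exact hl)
    intro a hai haj
    rcases hall a hai haj with rfl | rfl | rfl | rfl
    · exact hm
    · exact h3
    · exact h4
    · exact h5
  have e0 : v 0 ≠ 0 := key 1 2 0 (by decide) (by decide)
  have e1 : v 1 ≠ 0 := key 0 2 1 (by decide) (by decide)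
  have e2 : v 2 ≠ 0 := key 0 1 2 (by decide) (by decide)
  refine ⟨e0, ?_⟩
  obtain ⟨h, hh, e⟩ := transfer hF hG hstar h2 (by norm_num) hq hg (i := 3) (j := 4) (by decide) hkl h3 h4 hk hl
  rw [e, card_zeros hh]
  have h6 : (Finset.univ.filter fun m => v m = 0) = {3, 4, 5} := by
    ext m
    rw [Finset.mem_filter]
    fin_cases m <;> simp [e0, e1, e2, h3, h4, h5]
  rw [h6]
  rfl

/-- There is no non-monomial element. -/
theorem false_of_not_mono (hq : 3 ≤ q) {g : SU 6 F q} (hg : g ∈ X) (hgm : ¬ IsMono g) : False := by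
  classical
  have hex : ∀ l : Fin 6, ∃ v : Fin 6 → F, v ≠ 0 ∧ v 3 = 0 ∧ v 4 = 0 ∧ v 5 = 0 ∧ act g v 0 = 0 ∧ act g v l = 0 := by
    intro l
    obtain ⟨v, hv0, hv, hvl⟩ := exists_supported (F := F) (n := 6) (r := 2) {0, 1, 2} (by decide) ![lin g 0, lin g l]
    exact ⟨v, hv0, hv 3 (by decide), hv 4 (by decide), hv 5 (by decide), hvl 0, hvl 1⟩
  choose v hv0 hv3 hv4 hv5 hvk hvl using hex
  -- uniqueness up to scalars
  have huniq : ∀ (l : Fin 6), l ≠ 0 → ∀ w w' : Fin 6 → F, w ≠ 0 → w 3 = 0 → w 4 = 0 → w 5 = 0 → act g w 0 = 0 → act g w l = 0 →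
      w' 3 = 0 → w' 4 = 0 → w' 5 = 0 → act g w' 0 = 0 → act g w' l = 0 → ∃ c : F, w' = c • w := by
    intro l hl0 w w' hw0 hw3 hw4 hw5 hwk hwl hw3' hw4' hw5' hwk' hwl'
    have hw := (three_zeros hF hG hstar h2 hq hg hgm (Ne.symm hl0) hw0 hw3 hw4 hw5 hwk hwl).1
    refine ⟨w' 0 / w 0, ?_⟩
    by_contra hne
    have h6 : w' - (w' 0 / w 0) • w ≠ 0 := fun h => hne (sub_eq_zero.mp h)
    have hact : ∀ m, act g (w' - (w' 0 / w 0) • w) m = act g w' m - (w' 0 / w 0) * act g w m := by
      intro m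
      rw [act_sub, act_smul]
      rfl
    have h7 := (three_zeros hF hG hstar h2 hq hg hgm (Ne.symm hl0) h6
      (by simp only [Pi.sub_apply, Pi.smul_apply, hw3, hw3', smul_zero, sub_zero])
      (by simp only [Pi.sub_apply, Pi.smul_apply, hw4, hw4', smul_zero, sub_zero])
      (by simp only [Pi.sub_apply, Pi.smul_apply, hw5, hw5', smul_zero, sub_zero])
      (by rw [hact, hwk, hwk', mul_zero, sub_zero]) (by rw [hact, hwl, hwl', mul_zero, sub_zero])).1
    apply h7
    simp only [Pi.sub_apply, Pi.smul_apply, smul_eq_mul]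
    field_simp
    ring
  -- the third zero
  have hthird : ∀ l : Fin 6, l ≠ 0 → ∃ m : Fin 6, m ≠ 0 ∧ m ≠ l ∧ act g (v l) m = 0 ∧
      ∀ m', act g (v l) m' = 0 → m' = 0 ∨ m' = l ∨ m' = m := by
    intro l hl0
    have h1 := (three_zeros hF hG hstar h2 hq hg hgm (Ne.symm hl0) (hv0 l) (hv3 l) (hv4 l) (hv5 l) (hvk l) (hvl l)).2
    have h0 : (0 : Fin 6) ∈ (Finset.univ.filter fun m => act g (v l) m = 0) :=
      Finset.mem_filter.mpr ⟨Finset.mem_univ _, hvk l⟩
    have hl : l ∈ (Finset.univ.filter fun m => act g (v l) m = 0).erase 0 :=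
      Finset.mem_erase.mpr ⟨hl0, Finset.mem_filter.mpr ⟨Finset.mem_univ _, hvl l⟩⟩
    have h3 : (((Finset.univ.filter fun m => act g (v l) m = 0).erase 0).erase l).card = 1 := by
      rw [Finset.card_erase_of_mem hl, Finset.card_erase_of_mem h0, h1]
    obtain ⟨m, hm⟩ := Finset.card_eq_one.mp h3
    have hmm : m ∈ ((Finset.univ.filter fun m => act g (v l) m = 0).erase 0).erase l := by
      rw [hm]; exact Finset.mem_singleton_self m
    rw [Finset.mem_erase, Finset.mem_erase, Finset.mem_filter] at hmm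
    refine ⟨m, hmm.2.1, hmm.1, hmm.2.2.2, fun m' hm' => ?_⟩
    by_cases e0 : m' = 0
    · exact Or.inl e0
    by_cases e1 : m' = l
    · exact Or.inr (Or.inl e1)
    right; right
    have : m' ∈ ((Finset.univ.filter fun m => act g (v l) m = 0).erase 0).erase l := by
      rw [Finset.mem_erase, Finset.mem_erase, Finset.mem_filter]
      exact ⟨e1, e0, Finset.mem_univ _, hm'⟩
    rw [hm] at this
    exact Finset.mem_singleton.mp this
  choose t ht0 htl htz htu using hthird
  have hsum := Finset.sum_involution (s := (Finset.univ : Finset (Fin 6)).erase 0) (f := fun _ => (1 : ZMod 2))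
    (fun l hl => t l (Finset.ne_of_mem_erase hl)) (fun _ _ => by decide)
    (fun l hl _ => htl l (Finset.ne_of_mem_erase hl))
    (fun l hl => Finset.mem_erase.mpr ⟨ht0 l _, Finset.mem_univ _⟩) (by
      intro l hl
      have hl0 := Finset.ne_of_mem_erase hl
      have hm0 := ht0 l hl0
      -- `v (t l)` is proportional to `v l`
      obtain ⟨c, hc⟩ := huniq (t l hl0) hm0 (v l) (v (t l hl0)) (hv0 l) (hv3 l) (hv4 l) (hv5 l) (hvk l) (htz l hl0)
        (hv3 _) (hv4 _) (hv5 _) (hvk _) (hvl _)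
      have h1 : act g (v (t l hl0)) l = 0 := by
        rw [hc, act_smul, Pi.smul_apply, hvl l, smul_zero]
      rcases htu (t l hl0) hm0 l h1 with h | h | h
      · exact absurd h hl0
      · exact absurd h.symm (htl l hl0)
      · exact h.symm)
  have h5 : (∑ _x ∈ (Finset.univ : Finset (Fin 6)).erase 0, (1 : ZMod 2)) = 1 := by decide
  rw [h5] at hsum
  exact one_ne_zero hsum

end Six

/-- **Overgroups of the monomial group in `SU_6(q)`, `q` odd.** -/
theorem eq_top_six [Fintype F] (hF : Fintype.card F = q ^ 2) {X : Subgroup (SU 6 F q)}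
    (hG : ∀ g : SU 6 F q, IsMono g → g ∈ X) (h2 : (2 : F) ≠ 0) (hq : 3 ≤ q) (hX : ∃ g ∈ X, ¬ IsMono g) : X = ⊤ := by
  by_contra htop
  have hstar : ∀ y ∈ X, ∀ (k : Fin 6) (c : F), act y (Pi.single k 1) = c • Pi.single k 1 → IsMono y := by
    intro y hy k c hk
    by_contra hny
    exact htop (eq_top_of_fix hF hG (by norm_num) hq hy hny hk)
  obtain ⟨g, hg, hgm⟩ := hX
  exact false_of_not_mono hF hG hstar h2 hq hg hgm

/-- overgroups of the monomial group, `n ≥ 5`, `(n, q) ≠ (6, 2)`. -/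
theorem frame_top [Fintype F] (hF : Fintype.card F = q ^ 2) (hn : 5 ≤ n) (h6 : n = 6 → q ≠ 2) (X : Subgroup (SU n F q))
    (hG : ∀ g, IsMono g → g ∈ X) (hX : ∃ g ∈ X, ¬ IsMono g) : X = ⊤ := by
  by_cases h : n = 6 ∧ (2 : F) ≠ 0
  · obtain ⟨rfl, h2⟩ := h
    rcases H876.FrameMax.cases_q hF with rfl | ⟨h2', hq⟩ | ⟨h2', hq⟩
    · exact absurd rfl (h6 rfl)
    · exact absurd h2' h2
    · exact eq_top_six hF hG h2 hq hX
  · refine H876.FrameMax.frame_top_all hF hn (fun hn6 => ⟨?_, h6 hn6⟩) X hG hX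
    by_contra h2
    exact h ⟨hn6, h2⟩

/-- **Stabilisers of orthonormal frames are maximal in `SU_n(q)`, `n ≥ 5`, `(n, q) ≠ (6, 2)`.** -/
theorem frame_maximal [Fintype F] (hF : Fintype.card F = q ^ 2) (hn : 5 ≤ n) (h6 : n = 6 → q ≠ 2) {t : ℕ}
    (D : Fin t → Submodule F (Fin n → F))
    (hD : Cfsg.Geo.IsNondegenerateMDecomposition (Cfsg.hermForm n F q) 1 D) :
    Cfsg.Geo.IsMaximalIn (Cfsg.GU n F q ⊓ Cfsg.Geo.specialLinear (Fin n) F)
      (Cfsg.Geo.decompositionStabilizer D ⊓ (Cfsg.GU n F q ⊓ Cfsg.Geo.specialLinear (Fin n) F)) :=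
  H876.FrameMax.frame_maximal hF (by omega) D hD (frame_top hF hn h6)

end Cfsg.Agent.H924.SixFrame
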