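import Cfsg.Agent.H924.PTrace

/-!
**Overgroups of `SU_a ⊗ SU_b`, `2 ≤ a < b`, `b ≥ 3`, `q ≥ 3`** (`main_tens3`): the relative trace of the partial trace.
-/

set_option autoImplicit false
set_option linter.unusedSectionVars false

namespace Cfsg.Agent.H924.TU

open Module Matrix Cfsg.Agent.H880 Cfsg.Agent.ClassicalGeometry Cfsg.Agent.H924.PT

section Sum

variable {F : Type*} [Field F] [Finite F] {σ : F →+* F}

/-- The skew elements of the field. -/
abbrev Sk (σ : F →+* F) := {l : F // l + σ l = 0}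

theorem sum_skew [Fintype (Sk σ)] (hσ : σ ≠ RingHom.id F) (hσ2 : ∀ x : F, σ (σ x) = x) {ρ : F} (hρ : σ ρ = ρ) (hρ0 : ρ ≠ 0)
    (hρ1 : ρ ≠ 1) : (Fintype.card (Sk σ) : F) = 0 ∧ ∑ l : Sk σ, (l : F) = 0 := by
  obtain ⟨l0, hl0, hl⟩ := exists_skew hσ hσ2
  constructor
  · let e : Sk σ ≃ Sk σ :=
      { toFun := fun l => ⟨l.1 + l0, by rw [map_add]; linear_combination l.2 + hl⟩
        invFun := fun l => ⟨l.1 - l0, by rw [map_sub]; linear_combination l.2 - hl⟩
        left_inv := fun l => Subtype.ext (by simp)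
        right_inv := fun l => Subtype.ext (by simp) }
    have h1 : ∑ l : Sk σ, ((l : F) + l0) = ∑ l : Sk σ, (l : F) := Equiv.sum_comp e (fun l => (l : F))
    rw [Finset.sum_add_distrib, Finset.sum_const, Finset.card_univ, nsmul_eq_mul] at h1
    have h2 : (Fintype.card (Sk σ) : F) * l0 = 0 := by linear_combination h1
    exact (mul_eq_zero.mp h2).resolve_right hl0
  · let e : Sk σ ≃ Sk σ :=
      { toFun := fun l => ⟨ρ * l.1, by rw [map_mul, hρ]; linear_combination ρ * l.2⟩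
        invFun := fun l => ⟨ρ⁻¹ * l.1, by rw [map_mul, map_inv₀, hρ]; linear_combination ρ⁻¹ * l.2⟩
        left_inv := fun l => Subtype.ext (by simp [hρ0])
        right_inv := fun l => Subtype.ext (by simp [hρ0]) }
    have h1 : ∑ l : Sk σ, (ρ * (l : F)) = ∑ l : Sk σ, (l : F) := Equiv.sum_comp e (fun l => (l : F))
    rw [← Finset.mul_sum] at h1
    have h2 : (ρ - 1) * ∑ l : Sk σ, (l : F) = 0 := by linear_combination h1
    exact (mul_eq_zero.mp h2).resolve_left (sub_ne_zero.mpr hρ1)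

end Sum

section Tr

variable {F : Type*} [Field F] [Finite F] {σ : F →+* F} {a b : ℕ} {M : Subgroup (Mat a b F ≃ₗ[F] Mat a b F)}

/-- The nilpotent operator `Y ↦ (con w Y) ⊗ w`. -/
def nu (σ : F →+* F) (w : Fin b → F) : EM a b F := pureL w ∘ₗ con σ w

theorem nu_apply (w : Fin b → F) (Y : Mat a b F) : nu σ w Y = vecMulVec (con σ w Y) w := rfl

theorem nu_nu {w : Fin b → F} (hw : stB σ b w w = 0) (Y : Mat a b F) : nu σ w (nu σ w Y) = 0 := by
  rw [nu_apply, nu_apply, con_pure, hw, zero_smul, zero_pure]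

theorem rt_eq {w : Fin b → F} {l : F} {s : Mat a b F ≃ₗ[F] Mat a b F} (hs : IsRT σ w l s) (Y : Mat a b F) :
    s Y = Y + l • nu σ w Y := by
  rw [hs, nu_apply, Matrix.smul_vecMulVec]

theorem rt_symm_eq {w : Fin b → F} (hw : stB σ b w w = 0) {l : F} {s : Mat a b F ≃ₗ[F] Mat a b F} (hs : IsRT σ w l s)
    (Y : Mat a b F) : s.symm Y = Y - l • nu σ w Y := by
  rw [LinearEquiv.symm_apply_eq, rt_eq hs, map_sub, map_smul, nu_nu hw, smul_zero, sub_zero, sub_add_cancel]

/-- Conjugating by a root element. -/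
theorem cj_rt {w : Fin b → F} (hw : stB σ b w w = 0) {l : F} {s : Mat a b F ≃ₗ[F] Mat a b F} (hs : IsRT σ w l s)
    (x : EM a b F) : cj s x = x + l • (nu σ w ∘ₗ x - x ∘ₗ nu σ w) - (l * l) • (nu σ w ∘ₗ x ∘ₗ nu σ w) := by
  apply LinearMap.ext
  intro Y
  rw [cj_apply, rt_symm_eq hw hs, rt_eq hs, map_sub, map_smul, map_sub, map_smul]
  show x Y - l • x (nu σ w Y) + l • (nu σ w (x Y) - l • nu σ w (x (nu σ w Y))) =
    x Y + l • (nu σ w (x Y) - x (nu σ w Y)) - (l * l) • nu σ w (x (nu σ w Y))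
  rw [smul_sub, smul_sub, smul_smul]
  abel

/-- The group of root elements of `w` in `M`. -/
def rtG (hM : Over σ M) {w : Fin b → F} (hw : stB σ b w w = 0) : Subgroup M where
  carrier := {g | ∃ l : F, l + σ l = 0 ∧ IsRT σ w l g.1}
  one_mem' := ⟨0, by simp, fun X => by
    rw [zero_smul, zero_pure, add_zero]; rfl⟩
  mul_mem' := by
    rintro g h ⟨l, hl, hg⟩ ⟨m, hm, hh⟩
    refine ⟨l + m, by rw [map_add]; linear_combination hl + hm, fun X => ?_⟩
    show g.1 (h.1 X) = _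
    rw [rt_eq hh, map_add, map_smul, rt_eq hg, rt_eq hg, nu_nu hw, smul_zero, add_zero, add_smul, Matrix.add_vecMulVec,
      Matrix.smul_vecMulVec, Matrix.smul_vecMulVec, ← nu_apply]
    abel
  inv_mem' := by
    rintro g ⟨l, hl, hg⟩
    refine ⟨-l, by rw [map_neg]; linear_combination -hl, fun X => ?_⟩
    show g.1.symm X = _
    rw [rt_symm_eq hw hg, neg_smul, Matrix.neg_vecMulVec, Matrix.smul_vecMulVec, ← nu_apply]
    abel

/-- Skew elements give all elements of `rtG`. -/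
theorem exists_rtEquiv (hσ2 : ∀ x : F, σ (σ x) = x) (hM : Over σ M) {w : Fin b → F} (hw0 : w ≠ 0) (ha : 1 ≤ a)
    (hw : stB σ b w w = 0) : ∃ e : Sk σ ≃ rtG hM hw, ∀ l, IsRT σ w l.1 ((e l : M) : Mat a b F ≃ₗ[F] Mat a b F) := by
  choose s hsM hst hs using fun l : Sk σ => exists_rt (a := a) hσ2 hM hw l.2
  let f : Sk σ → rtG hM hw := fun l => ⟨⟨s l, hsM l⟩, ⟨l.1, l.2, hs l⟩⟩
  have hinj : ∀ l m : F, ∀ t : Mat a b F ≃ₗ[F] Mat a b F, IsRT σ w l t → IsRT σ w m t → l = m := by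
    intro l m t hl hm
    obtain ⟨X, hX⟩ := con_surj (σ := σ) hw0 (Pi.single (⟨0, ha⟩ : Fin a) 1)
    have h1 : l • nu σ w X = m • nu σ w X := by
      have h2 := rt_eq hl X
      rw [rt_eq hm X] at h2
      exact (add_left_cancel h2).symm
    have h2 : nu σ w X ≠ 0 := by
      rw [nu_apply, hX]
      exact pure_ne_zero (by
        intro h
        have := congrFun h ⟨0, ha⟩
        simp at this) hw0
    exact smul_left_injective F h2 h1
  have hf : Function.Bijective f := by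
    constructor
    · intro l m h
      have h1 : s l = s m := congrArg (fun x : rtG hM hw => ((x : M) : Mat a b F ≃ₗ[F] Mat a b F)) h
      exact Subtype.ext (hinj _ _ _ (hs l) (h1 ▸ hs m))
    · rintro ⟨⟨g, hg⟩, l, hl, hgl⟩
      refine ⟨⟨l, hl⟩, ?_⟩
      apply Subtype.ext
      apply Subtype.ext
      show s ⟨l, hl⟩ = g
      apply LinearEquiv.ext
      intro X
      rw [hs ⟨l, hl⟩ X]
      exact (hgl X).symm
  exact ⟨Equiv.ofBijective f hf, fun l => hs l⟩

/-- **The trace over a root group.** -/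
theorem sum_rtG (hσ : σ ≠ RingHom.id F) (hσ2 : ∀ x : F, σ (σ x) = x) {ρ : F} (hρ : σ ρ = ρ) (hρ0 : ρ ≠ 0)
    (hρ1 : ρ ≠ 1) (hM : Over σ M) {w : Fin b → F} (hw0 : w ≠ 0) (ha : 1 ≤ a) (hw : stB σ b w w = 0)
    [Fintype (rtG hM hw)] (y : EM a b F) :
    ∃ κ : F, ∑ c : rtG hM hw, cj ((c : M) : Mat a b F ≃ₗ[F] Mat a b F) y = κ • (nu σ w ∘ₗ y ∘ₗ nu σ w) := by
  classical
  have : Fintype (Sk σ) := Fintype.ofFinite _
  obtain ⟨e, he⟩ := exists_rtEquiv hσ2 hM hw0 ha hw
  obtain ⟨h1, h2⟩ := sum_skew hσ hσ2 hρ hρ0 hρ1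
  refine ⟨-∑ l : Sk σ, ((l : F) * l), ?_⟩
  rw [← Equiv.sum_comp e]
  have h3 : ∀ l : Sk σ, cj ((e l : M) : Mat a b F ≃ₗ[F] Mat a b F) y =
      (y + (l : F) • (nu σ w ∘ₗ y - y ∘ₗ nu σ w)) - ((l : F) * l) • (nu σ w ∘ₗ y ∘ₗ nu σ w) := fun l => cj_rt hw (he l) y
  rw [Finset.sum_congr rfl fun l _ => h3 l, Finset.sum_sub_distrib, Finset.sum_add_distrib, ← Finset.sum_smul, ← Finset.sum_smul,
    h2, zero_smul, Finset.sum_const, Finset.card_univ, ← Nat.cast_smul_eq_nsmul F, h1, zero_smul, add_zero, zero_sub]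
  exact (neg_smul _ _).symm

/-- **The relative trace of `pf`.** -/
theorem exists_Phi (hσ : σ ≠ RingHom.id F) (hσ2 : ∀ x : F, σ (σ x) = x) {ρ : F} (hρ : σ ρ = ρ) (hρ0 : ρ ≠ 0)
    (hρ1 : ρ ≠ 1) (ha : 1 ≤ a) (hab : a < b) (hb : 3 ≤ b) (hM : Over σ M)
    (hK : ∀ w : Fin b → F, w ≠ 0 → stB σ b w w = 0 → ∀ κ : (Fin a → F) →ₗ[F] (Fin a → F), InK σ M w κ →
      ∃ c : F, ∀ x, κ x = c • x) :
    ∃ Φ : EM a b F →ₗ[F] EM a b F, (∀ g ∈ M, ∀ x, Φ (cj g x) = cj g (Φ x)) ∧
      ∀ w : Fin b → F, w ≠ 0 → stB σ b w w = 0 → ∀ x : EM a b F, (∀ Y, x (nu σ w Y) = nu σ w (x Y)) →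
        ∀ Y, ∃ u, Φ x Y - pf x Y = vecMulVec u w := by
  classical
  have : Finite M := inferInstance
  let ρ' : M →* Module.End F (EM a b F) := cj.comp M.subtype
  let H : Subgroup M := (tensM M).subgroupOf M
  have hH : ∀ g : M, g ∈ H ↔ IsTens g.1 := by
    intro g
    rw [Subgroup.mem_subgroupOf]
    exact ⟨fun h => h.2, fun h => ⟨g.2, h⟩⟩
  obtain ⟨Φ, hΦ, hC⟩ := H189.TraceFix.exists_trace ρ' H pf (by
    intro h hh
    apply LinearMap.ext
    intro x
    exact (pf_cj ((hH h).mp hh) x).symm)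
  refine ⟨Φ, fun g hg x => (LinearMap.congr_fun (hΦ ⟨g, hg⟩) x).symm, ?_⟩
  intro w hw0 hw x hx Y
  have : Fintype (rtG hM hw) := Fintype.ofFinite _
  obtain ⟨y, hy⟩ := hC (rtG hM hw) (by
    rintro c ⟨l, hl, hcl⟩
    rw [hH]
    obtain ⟨s, hsM, hst, hs⟩ := exists_rt (a := a) hσ2 hM hw hl
    have h1 : c.1 = s := by
      apply LinearEquiv.ext
      intro X
      rw [hs X, hcl X]
    rw [h1]
    exact hst) (by
    rintro g hg c ⟨l, hl, hcl⟩ hcg
    by_contra hc1
    apply hg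
    have hl0 : l ≠ 0 := by
      rintro rfl
      apply hc1
      apply Subtype.ext
      apply LinearEquiv.ext
      intro X
      rw [hcl X, zero_smul, zero_pure, add_zero]
      rfl
    rw [hH] at hcg ⊢
    have h1 := ti_row hσ hσ2 ha hab hb hM hK hw0 hw hl0 hcl (g := g.1⁻¹) (M.inv_mem g.2) (by
      rw [inv_inv]; exact hcg)
    have h2 := h1.inv
    rwa [inv_inv] at h2) x (by
    rintro c ⟨l, hl, hcl⟩
    show cj c.1 x = x
    apply LinearMap.ext
    intro Z
    rw [cj_apply, rt_symm_eq hw hcl, rt_eq hcl, map_sub, map_smul, hx, map_sub, map_smul, nu_nu hw, smul_zero, sub_zero,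
      sub_add_cancel])
  obtain ⟨κ, hκ⟩ := sum_rtG hσ hσ2 hρ hρ0 hρ1 hM hw0 ha hw y
  have h3 : Φ x = pf x + κ • (nu σ w ∘ₗ y ∘ₗ nu σ w) := by
    rw [hy, ← hκ]
    rfl
  rw [h3]
  refine ⟨κ • con σ w (y (nu σ w Y)), ?_⟩
  rw [Matrix.smul_vecMulVec, ← nu_apply, LinearMap.add_apply, add_sub_cancel_left]
  rfl

/-- Two independent isotropic vectors in the orthogonal complement of a nonsingular vector. -/
theorem exists_two_isotropic (hσ : σ ≠ RingHom.id F) (hσ2 : ∀ x : F, σ (σ x) = x) (hb : 3 ≤ b) {v : Fin b → F}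
    (hv : stB σ b v v ≠ 0) : ∃ w w' : Fin b → F, stB σ b w w = 0 ∧ stB σ b w' w' = 0 ∧ stB σ b w w' = 1 ∧
      stB σ b v w = 0 ∧ stB σ b v w' = 0 := by
  have hS := stB_symm hσ2 b
  have hd := finrank_perp_one (B := stB σ b) v
  rw [finrank_fin_fun] at hd
  obtain ⟨w, hwv, hw0, hw⟩ := exists_isotropic (B := stB σ b) hσ hσ2 hS (perp (stB σ b) {v}) (by omega)
  have hvw : stB σ b v w = 0 := hwv v rfl
  have hwv' : stB σ b w v = 0 := symm_zero hS hvw
  obtain ⟨z0, hz0⟩ := exists_one_std (σ := σ) hw0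
  obtain ⟨c, d, h1, h2⟩ := exists_partner (B := stB σ b) hσ hσ2 hS hw (z := z0 - (stB σ b v z0 / stB σ b v v) • v) (by
    rw [map_sub, map_smul, hwv', hz0, smul_zero, sub_zero]
    exact one_ne_zero)
  refine ⟨w, _, hw, h2, h1, hvw, ?_⟩
  rw [map_add, map_smul, map_smul, map_sub, map_smul, hvw, smul_eq_mul, smul_eq_mul, smul_eq_mul, div_mul_cancel₀ _ hv, sub_self,
    mul_zero, mul_zero, add_zero]

/-- `Y ↦ c (con v Y) ⊗ w`. -/
def elm (σ : F →+* F) (c : (Fin a → F) →ₗ[F] (Fin a → F)) (v w : Fin b → F) : EM a b F := pureL w ∘ₗ c ∘ₗ con σ v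

theorem elm_apply (c : (Fin a → F) →ₗ[F] (Fin a → F)) (v w : Fin b → F) (Y : Mat a b F) :
    elm σ c v w Y = vecMulVec (c (con σ v Y)) w := rfl

/-- A scalar of prescribed norm, and a second one which is independent. -/
theorem exists_norms (hσ : σ ≠ RingHom.id F) (hσ2 : ∀ x : F, σ (σ x) = x) {ρ : F} (hρ : σ ρ = ρ) (hρ0 : ρ ≠ 0)
    (hρ1 : ρ ≠ 1) : ∃ l m : F, 1 + σ l * l ≠ 0 ∧ 1 + σ m * m ≠ 0 ∧ σ l * m ≠ l * σ m := by
  obtain ⟨l, hl0, hl⟩ := Cfsg.Agent.ClassicalGeometry.HermWitt.norm_surj σ hσ hσ2 (-ρ) (by rw [map_neg, hρ]) (by simpa using hρ0)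
  obtain ⟨ζ, hζ, hζ1, hζ2⟩ := exists_norm_one hσ hσ2
  have hσl : σ l ≠ 0 := by simpa using hl0
  have hl' : σ l * l = -ρ := by rw [← hl]; ring
  refine ⟨l, ζ * l, ?_, ?_, ?_⟩
  · rw [hl']
    intro h
    exact hρ1 (by linear_combination -h)
  · rw [map_mul]
    intro h
    apply hρ1
    linear_combination -h + (σ l * l) * hζ + hl'
  · rw [map_mul]
    intro h
    apply hζ2
    have h1 : (ζ - σ ζ) * (σ l * l) = 0 := by linear_combination h
    have h2 : ζ = σ ζ := by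
      rcases mul_eq_zero.mp h1 with h3 | h3
      · exact sub_eq_zero.mp h3
      · exact absurd h3 (mul_ne_zero hσl hl0)
    rw [sq]
    nth_rewrite 1 [h2]
    exact hζ

/-- **The relative trace of `pf` is `pf`.** -/
theorem pf_comm (hσ : σ ≠ RingHom.id F) (hσ2 : ∀ x : F, σ (σ x) = x) {ρ : F} (hρ : σ ρ = ρ) (hρ0 : ρ ≠ 0)
    (hρ1 : ρ ≠ 1) (ha : 1 ≤ a) (hab : a < b) (hb : 3 ≤ b) (hM : Over σ M)
    (hK : ∀ w : Fin b → F, w ≠ 0 → stB σ b w w = 0 → ∀ κ : (Fin a → F) →ₗ[F] (Fin a → F), InK σ M w κ →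
      ∃ c : F, ∀ x, κ x = c • x) {g : Mat a b F ≃ₗ[F] Mat a b F} (hg : g ∈ M) (x : EM a b F) :
    pf (cj g x) = cj g (pf x) := by
  classical
  obtain ⟨Φ, hΦ, hC⟩ := exists_Phi hσ hσ2 hρ hρ0 hρ1 ha hab hb hM hK
  have hS := stB_symm hσ2 b
  -- nonsingular vectors
  have h1 : ∀ (c : (Fin a → F) →ₗ[F] (Fin a → F)) (v : Fin b → F), stB σ b v v ≠ 0 → Φ (elm σ c v v) = pf (elm σ c v v) := by
    intro c v hv
    obtain ⟨w, w', hw, hw', hww', hvw, hvw'⟩ := exists_two_isotropic hσ hσ2 hb hv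
    have hcom : ∀ z, stB σ b v z = 0 → ∀ Y, elm σ c v v (nu σ z Y) = nu σ z (elm σ c v v Y) := by
      intro z hz Y
      rw [elm_apply, elm_apply, nu_apply, nu_apply, con_pure, con_pure, hz, symm_zero hS hz, zero_smul, zero_smul, map_zero,
        zero_pure, zero_pure]
    have hw0 : w ≠ 0 := by
      rintro rfl
      rw [map_zero, LinearMap.zero_apply] at hww'
      exact zero_ne_one hww'
    have hw0' : w' ≠ 0 := by
      rintro rfl
      rw [map_zero] at hww'
      exact zero_ne_one hww'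
    apply LinearMap.ext
    intro Y
    obtain ⟨u, hu⟩ := hC w hw0 hw _ (hcom w hvw) Y
    obtain ⟨u', hu'⟩ := hC w' hw0' hw' _ (hcom w' hvw') Y
    have h2 : vecMulVec u w = vecMulVec u' w' := by rw [← hu, hu']
    have h3 : u = 0 := by
      funext i
      have h4 : u i • w = u' i • w' := congrFun h2 i
      have h5 := congrArg (fun z => stB σ b z w') h4
      simp only [LinearMap.map_smulₛₗ₂, hw', hww', smul_eq_mul, mul_zero, mul_one] at h5
      have h6 : σ (u i) = 0 := h5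
      simpa using h6
    rw [h3, zero_pure] at hu
    exact sub_eq_zero.mp hu
  -- polarisation
  have e0 : ∀ i : Fin b, stB σ b (Pi.single i 1) (Pi.single i 1) = 1 := by
    intro i
    rw [stB_single_left, Pi.single_eq_same]
  have h2 : ∀ (c : (Fin a → F) →ₗ[F] (Fin a → F)) (i j : Fin b), Φ (elm σ c (Pi.single i 1) (Pi.single j 1)) =
      pf (elm σ c (Pi.single i 1) (Pi.single j 1)) := by
    intro c i j
    by_cases hij : i = j
    · subst hij
      exact h1 c _ (by rw [e0]; exact one_ne_zero)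
    set v : Fin b → F := Pi.single i 1 with hv_def
    set w : Fin b → F := Pi.single j 1 with hw_def
    have hv1 : stB σ b v v = 1 := e0 i
    have hw1 : stB σ b w w = 1 := e0 j
    have hvw : stB σ b v w = 0 := by
      rw [hv_def, stB_single_left, hw_def, Pi.single_eq_of_ne hij]
    have hwv : stB σ b w v = 0 := symm_zero hS hvw
    have key : ∀ l : F, 1 + σ l * l ≠ 0 →
        l • (Φ (elm σ c v w) - pf (elm σ c v w)) + σ l • (Φ (elm σ c w v) - pf (elm σ c w v)) = 0 := by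
      intro l hl
      have h3 : stB σ b (v + l • w) (v + l • w) ≠ 0 := by
        simp only [map_add, LinearMap.add_apply, map_smul, LinearMap.map_smulₛₗ₂, hv1, hw1, hvw, hwv, smul_eq_mul, mul_zero,
          mul_one, zero_add, add_zero]
        intro h; apply hl; linear_combination h
      have h4 : elm σ c (v + l • w) (v + l • w) = elm σ c v v + (σ l * l) • elm σ c w w + l • elm σ c v w + σ l • elm σ c w v := by
        apply LinearMap.ext
        intro Y
        simp only [LinearMap.add_apply, LinearMap.smul_apply, elm_apply, con_add, con_smul, map_add, map_smul,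
          Matrix.add_vecMulVec, Matrix.vecMulVec_add, Matrix.smul_vecMulVec, Matrix.vecMulVec_smul, smul_add, smul_smul]
        have e1 : ∀ (x y : F) (A : Mat a b F), (x * y) • A = (y * x) • A := fun x y A => by rw [mul_comm]
        rw [e1 l (σ l)]
        abel
      have h5 := h1 c _ h3
      have h6 := h1 c v (by rw [hv1]; exact one_ne_zero)
      have h7 := h1 c w (by rw [hw1]; exact one_ne_zero)
      rw [h4, map_add, map_add, map_add, map_add, map_add, map_add, map_smul, map_smul, map_smul, map_smul, map_smul, map_smul,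
        h6, h7] at h5
      rw [smul_sub, smul_sub]
      have h8 : l • Φ (elm σ c v w) + σ l • Φ (elm σ c w v) = l • pf (elm σ c v w) + σ l • pf (elm σ c w v) := by
        have h9 := h5
        rw [add_assoc, add_assoc (pf (elm σ c v v) + (σ l * l) • pf (elm σ c w w)) (l • pf (elm σ c v w))] at h9
        exact add_left_cancel h9
      have h9 := sub_eq_zero.mpr h8
      rw [← h9]
      abel
    obtain ⟨l, m, hl, hm, hlm⟩ := exists_norms hσ hσ2 hρ hρ0 hρ1
    have k1 := key l hl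
    have k2 := key m hm
    set A := Φ (elm σ c v w) - pf (elm σ c v w)
    set B := Φ (elm σ c w v) - pf (elm σ c w v)
    have h9 : (l * σ m - σ l * m) • A = 0 := by
      have e1 : (l * σ m - σ l * m) • A = σ m • (l • A + σ l • B) - σ l • (m • A + σ m • B) := by
        simp only [smul_add, smul_smul]
        rw [mul_comm l (σ m), mul_comm (σ l) (σ m), sub_smul (σ m * l) (σ l * m) A]
        abel
      rw [e1, k1, k2, smul_zero, smul_zero, sub_zero]
    have h10 : A = 0 := by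
      rcases smul_eq_zero.mp h9 with h | h
      · exact absurd (sub_eq_zero.mp h).symm hlm
      · exact h
    exact sub_eq_zero.mp h10
  -- all endomorphisms
  have h3 : ∀ x : EM a b F, x = ∑ i : Fin b, ∑ j : Fin b, elm σ (col j ∘ₗ x ∘ₗ pureL (Pi.single i 1)) (Pi.single i 1) (Pi.single j 1) := by
    intro x
    apply LinearMap.ext
    intro Y
    have h4 : Y = ∑ i : Fin b, vecMulVec (con σ (Pi.single i 1) Y) (Pi.single i 1) := by
      funext k l
      rw [Matrix.sum_apply, Finset.sum_eq_single l]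
      · rw [vecMulVec_apply, con_apply, stB_single_left, Pi.single_eq_same, mul_one]
      · intro i _ hi
        rw [vecMulVec_apply, Pi.single_eq_of_ne (Ne.symm hi), mul_zero]
      · intro h; exact absurd (Finset.mem_univ _) h
    have h5 : ∀ Z : Mat a b F, Z = ∑ j : Fin b, vecMulVec (col j Z) (Pi.single j 1) := by
      intro Z
      funext k l
      rw [Matrix.sum_apply, Finset.sum_eq_single l]
      · rw [vecMulVec_apply, PT.col_apply, Pi.single_eq_same, mul_one]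
      · intro i _ hi
        rw [vecMulVec_apply, Pi.single_eq_of_ne (Ne.symm hi), mul_zero]
      · intro h; exact absurd (Finset.mem_univ _) h
    conv_lhs => rw [h4, map_sum]
    rw [LinearMap.sum_apply]
    refine Finset.sum_congr rfl fun i _ => ?_
    rw [LinearMap.sum_apply]
    exact h5 _
  have h4 : ∀ x : EM a b F, Φ x = pf x := by
    intro x
    rw [h3 x, map_sum, map_sum]
    refine Finset.sum_congr rfl fun i _ => ?_
    rw [map_sum, map_sum]
    exact Finset.sum_congr rfl fun j _ => h2 _ _ _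
  rw [← h4, ← h4, hΦ g hg]

/-- If the centres of the radicals are as small as possible, the overgroup consists of tensors. -/
theorem tens_of_hK (hσ : σ ≠ RingHom.id F) (hσ2 : ∀ x : F, σ (σ x) = x) {ρ : F} (hρ : σ ρ = ρ) (hρ0 : ρ ≠ 0)
    (hρ1 : ρ ≠ 1) (ha : 1 ≤ a) (hab : a < b) (hb : 3 ≤ b) (hM : Over σ M)
    (hK : ∀ w : Fin b → F, w ≠ 0 → stB σ b w w = 0 → ∀ κ : (Fin a → F) →ₗ[F] (Fin a → F), InK σ M w κ →
      ∃ c : F, ∀ x, κ x = c • x) {g : Mat a b F ≃ₗ[F] Mat a b F} (hg : g ∈ M) : IsTens g :=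
  isTens_of_pf ha hab fun x => pf_comm hσ hσ2 hρ hρ0 hρ1 ha hab hb hM hK hg x

/-- `HasT` for `u ⊗ s`, `u` isotropic, `s` arbitrary. -/
theorem gen_pure3 (hσ : σ ≠ RingHom.id F) (hσ2 : ∀ x : F, σ (σ x) = x) {ρ : F} (hρ : σ ρ = ρ) (hρ0 : ρ ≠ 0)
    (hρ1 : ρ ≠ 1) (hb : 3 ≤ b) (hM : Over σ M)
    (h0 : ∀ u w, stB σ a u u = 0 → stB σ b w w = 0 → HasT (BV σ a b) M (vecMulVec u w))
    (u : Fin a → F) (hu : stB σ a u u = 0) (s : Fin b → F) : HasT (BV σ a b) M (vecMulVec u s) := by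
  have hSa := stB_symm hσ2 a
  have hSb := stB_symm hσ2 b
  have hSV := BV_symm hσ2 a b
  by_cases hss : stB σ b s s = 0
  · exact h0 u s hu hss
  by_cases hu0 : u = 0
  · subst hu0
    rw [zero_pure]
    exact HasT.zero
  obtain ⟨u', huu', hu'⟩ := exists_partner_std hσ hσ2 hu0 hu
  have hu'u : stB σ a u' u = 1 := by rw [← hSa.eq, huu', map_one]
  obtain ⟨l, hl0, hl⟩ := exists_skew hσ hσ2
  have hσl : σ l = -l := by linear_combination hl
  have hs0 : s ≠ 0 := by
    rintro rfl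
    exact hss (by rw [map_zero])
  set n := stB σ b s s with hn_def
  have hσn : σ n = n := hSb.eq _ _
  -- an isotropic vector `r`
  obtain ⟨r, hsr, hr⟩ := exists_vec (B := stB σ b) hσ hσ2 hSb (stB_sepLeft b) (by rw [finrank_fin_fun]; omega)
    hs0 l 0 (map_zero _)
  have hrs : stB σ b r s = -l := by rw [← hSb.eq, hsr, hσl]
  -- a unit vector orthogonal to `s` and `r`
  obtain ⟨e, he1, he2, he3⟩ : ∃ e, stB σ b s e = 0 ∧ stB σ b r e = 0 ∧ stB σ b e e = 1 := by
    obtain ⟨e, he, hee⟩ := HermWitt.exists_apply_self_eq_one σ (stB σ b) hσ hσ2 hSb (perp (stB σ b) (Set.range ![s, r])) (by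
      have hd := finrank_perp_range (B := stB σ b) ![s, r]
      rw [Fintype.card_fin, finrank_fin_fun] at hd
      have h1 : 0 < finrank F (perp (stB σ b) (Set.range ![s, r])) := by omega
      obtain ⟨⟨x, hx⟩, hx0⟩ := Module.finrank_pos_iff_exists_ne_zero.mp h1
      have hx0' : x ≠ 0 := fun h => hx0 (Subtype.ext h)
      obtain ⟨z, hz⟩ := exists_one_std (σ := σ) hx0'
      have hsx : stB σ b s x = 0 := hx _ ⟨0, rfl⟩
      have hrx : stB σ b r x = 0 := hx _ ⟨1, rfl⟩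
      have hxs := symm_zero hSb hsx
      have hxr := symm_zero hSb hrx
      set α := -(stB σ b r z) / l with hα
      set β := (stB σ b s z - α * n) / l with hβ
      have hαl : α * l = -(stB σ b r z) := by rw [hα, div_mul_cancel₀ _ hl0]
      have hβl : β * l = stB σ b s z - α * n := by rw [hβ, div_mul_cancel₀ _ hl0]
      refine ⟨x, hx, z - α • s - β • r, ?_, ?_⟩
      · rintro _ ⟨i, rfl⟩
        fin_cases i
        · show stB σ b s _ = 0
          simp only [map_sub, map_smul, hsr, smul_eq_mul, ← hn_def]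
          linear_combination -hβl
        · show stB σ b r _ = 0
          simp only [map_sub, map_smul, hrs, hr, smul_eq_mul]
          linear_combination hαl
      · simp only [map_sub, map_smul, hxs, hxr, smul_eq_mul, mul_zero, sub_zero, hz]
        exact one_ne_zero)
    exact ⟨e, he _ ⟨0, rfl⟩, he _ ⟨1, rfl⟩, hee⟩
  have hes := symm_zero hSb he1
  have her := symm_zero hSb he2
  obtain ⟨y0, hy0⟩ := HermWitt.trace_surj σ hσ hσ2 ((1 - 2 * ρ) * n) (by
    rw [map_mul, map_sub, map_mul, map_one, hρ, hσn, map_ofNat])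
  obtain ⟨γ, hγ0, hγ⟩ := HermWitt.norm_surj σ hσ hσ2 (-(ρ * (1 - ρ) * n)) (by
    rw [map_neg, map_mul, map_mul, map_sub, map_one, hρ, hσn]) (by
    refine neg_ne_zero.mpr (mul_ne_zero (mul_ne_zero hρ0 ?_) hss)
    intro h
    exact hρ1 (by linear_combination -h))
  set y := y0 / l with hy
  have hyl : y * l = y0 := by rw [hy, div_mul_cancel₀ _ hl0]
  have hσy : σ y * l = -σ y0 := by
    have h1 := congrArg σ hyl
    rw [map_mul, hσl] at h1
    linear_combination -h1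
  set s₁ : Fin b → F := ρ • s + y • r + γ • e with hs₁
  set s₂ : Fin b → F := (1 - ρ) • s - y • r - γ • e with hs₂
  have hs12 : s₁ + s₂ = s := by
    rw [hs₁, hs₂, sub_smul, one_smul]
    abel
  have hs1 : stB σ b s₁ s₁ = 0 := by
    rw [hs₁]
    simp only [map_add, LinearMap.add_apply, LinearMap.map_smulₛₗ₂, map_smul, smul_eq_mul, hsr, hrs, hr, he1, he2, he3, hes, her,
      hρ, ← hn_def]
    linear_combination hγ + ρ * hyl - ρ * hσy + ρ * hy0
  have hs2 : stB σ b s₂ s₂ = 0 := by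
    rw [hs₂]
    simp only [map_sub, LinearMap.sub_apply, LinearMap.map_smulₛₗ₂, map_smul, smul_eq_mul, hsr, hrs, hr, he1, he2, he3, hes, her,
      hρ, ← hn_def, map_one]
    linear_combination hγ - (1 - ρ) * hyl + (1 - ρ) * hσy - (1 - ρ) * hy0
  have hs1r : stB σ b s₁ r = ρ * l := by
    rw [hs₁]
    simp only [map_add, LinearMap.add_apply, LinearMap.map_smulₛₗ₂, smul_eq_mul, hsr, hr, her, hρ]
    ring
  have hs2r : stB σ b s₂ r = (1 - ρ) * l := by
    rw [hs₂]
    simp only [map_sub, LinearMap.sub_apply, LinearMap.map_smulₛₗ₂, smul_eq_mul, hsr, hr, her, hρ, map_one]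
    ring
  have hrs1 : stB σ b r s₁ = -(ρ * l) := by rw [← hSb.eq, hs1r, map_mul, hρ, hσl]; ring
  have hrs2 : stB σ b r s₂ = -((1 - ρ) * l) := by
    rw [← hSb.eq, hs2r, map_mul, map_sub, map_one, hρ, hσl]; ring
  have h1ρ : 1 - ρ ≠ 0 := fun h => hρ1 (by linear_combination -h)
  have h1 : HasT (BV σ a b) M (vecMulVec u s₁ + vecMulVec u' r) := by
    refine HasT.add hSV hM.iso (h0 u s₁ hu hs1) (h0 u' r hu' hr) ?_ ?_
    · rw [BV_pure, hu'u, hrs1, one_mul]
      exact neg_ne_zero.mpr (mul_ne_zero hρ0 hl0)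
    · simp only [map_add, LinearMap.add_apply, BV_pure, hu, hu', huu', hu'u, hs1r, hrs1]
      ring
  have h2 : HasT (BV σ a b) M (vecMulVec u s₂ + vecMulVec u' (-r)) := by
    refine HasT.add hSV hM.iso (h0 u s₂ hu hs2) (h0 u' (-r) hu' (by rw [map_neg, map_neg, LinearMap.neg_apply, hr, neg_zero, neg_zero]))
      ?_ ?_
    · rw [BV_pure, hu'u, map_neg, LinearMap.neg_apply, hrs2, one_mul, neg_neg]
      exact mul_ne_zero h1ρ hl0
    · simp only [map_add, map_neg, LinearMap.neg_apply, LinearMap.add_apply, BV_pure, hu, hu', huu', hu'u, hs2r, hrs2]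
      ring
  have h3 := HasT.add hSV hM.iso h1 h2 (by
    simp only [map_add, map_neg, LinearMap.neg_apply, LinearMap.add_apply, BV_pure, hu, hu', huu', hu'u, hs2r, hrs1]
    intro h
    exact hl0 (by linear_combination h)) (by
    simp only [map_add, map_neg, LinearMap.neg_apply, LinearMap.add_apply, BV_pure, hu, hu', huu', hu'u, hs2r, hrs2, hs1r, hrs1]
    ring)
  have h4 : vecMulVec u s₁ + vecMulVec u' r + (vecMulVec u s₂ + vecMulVec u' (-r)) = (vecMulVec u s : Mat a b F) := by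
    have h5 : (vecMulVec u s : Mat a b F) = vecMulVec u s₁ + vecMulVec u s₂ := by rw [← hs12, Matrix.vecMulVec_add]
    rw [h5, Matrix.vecMulVec_neg]
    abel
  rw [h4] at h3
  exact h3

/-- **Overgroups of `SU_2 ⊗ SU_3`, `q ≥ 3`.** -/
theorem main_tens23 {M : Subgroup (Mat 2 3 F ≃ₗ[F] Mat 2 3 F)} (hσ : σ ≠ RingHom.id F) (hσ2 : ∀ x : F, σ (σ x) = x)
    (hq : ∃ ρ : F, σ ρ = ρ ∧ ρ ≠ 0 ∧ ρ ≠ 1) (hM : Over σ M) :
    (∀ g ∈ M, IsTens g) ∨ ∀ X, BV σ 2 3 X X = 0 → HasT (BV σ 2 3) M X := by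
  obtain ⟨ρ, hρ, hρ0, hρ1⟩ := hq
  by_cases hK : ∀ w : Fin 3 → F, w ≠ 0 → stB σ 3 w w = 0 → ∀ κ : (Fin 2 → F) →ₗ[F] (Fin 2 → F), InK σ M w κ →
      ∃ c : F, ∀ x, κ x = c • x
  · left
    intro g hg
    exact tens_of_hK hσ hσ2 hρ hρ0 hρ1 (by norm_num) (by norm_num) (by norm_num) hM hK hg
  · right
    push Not at hK
    obtain ⟨w, hw0, hw, κ, hκ, hns⟩ := hK
    have h1 := claimA hσ hσ2 (a := 2) (b := 3) (by norm_num) (by norm_num) (Or.inr ⟨ρ, hρ, hρ0, hρ1⟩) hM hw0 hw hκ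
      (by push Not; exact hns)
    have h2 := gen_pure3 hσ hσ2 hρ hρ0 hρ1 (by norm_num) hM h1
    intro X hX
    have e : X = vecMulVec (Pi.single 0 1) (X 0) + vecMulVec (Pi.single 1 1) (X 1) := by
      funext k
      show X k = (Pi.single 0 (1 : F) : Fin 2 → F) k • X 0 + (Pi.single 1 (1 : F) : Fin 2 → F) k • X 1
      fin_cases k
      · show X 0 = (Pi.single 0 (1 : F) : Fin 2 → F) 0 • X 0 + (Pi.single 1 (1 : F) : Fin 2 → F) 0 • X 1
        simp
      · show X 1 = (Pi.single 0 (1 : F) : Fin 2 → F) 1 • X 0 + (Pi.single 1 (1 : F) : Fin 2 → F) 1 • X 1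
        simp
    rw [e]
    apply gen_rows_two hσ hσ2 hM (fun u w hu => h2 u hu w) (by decide)
    rw [BV_apply, Fin.sum_univ_two] at hX
    exact hX

end Tr

end Cfsg.Agent.H924.TU
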