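import Cfsg.Agent.H872.KronPres
import Cfsg.Agent.H929.Quad

/-!
# `Sp_2(q) ⊗ O_n(q)` in `Sp_{2n}(q)`: set-up (helper924)
-/

set_option autoImplicit false
set_option linter.unusedSectionVars false

open Cfsg Cfsg.Geo Matrix
open scoped Kronecker

namespace Cfsg.Agent.H924.Ten

open Cfsg.Agent.H929 (QF rB)
open Cfsg.Agent.H872

variable {β : Type} [Fintype β] [DecidableEq β] {F : Type*} [Field F]

/-- The set-up: a symplectic form on `F²`, a nondegenerate symmetric form on `F^β` in odd characteristic, and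
their tensor product. -/
structure Tens (f₁ : (Fin 2 → F) → (Fin 2 → F) → F) (Q : (β → F) → F) (B : (β → F) → (β → F) → F)
    (f : (Fin 2 × β → F) → (Fin 2 × β → F) → F) : Prop where
  sym : IsSymplecticForm f₁
  qf : QF Q B
  nd : ∀ x, x ≠ 0 → ∃ y, B x y ≠ 0
  two : (2 : F) ≠ 0
  bil : IsBilinearForm f
  ten : ∀ u w u' w', f (ten u w) (ten u' w') = f₁ u u' * B w w'

/-- Contraction with `B w`. -/
def R (B : (β → F) → (β → F) → F) (w : β → F) : (Fin 2 × β → F) →ₗ[F] (Fin 2 → F) := rc (rB B w)

variable {f₁ : (Fin 2 → F) → (Fin 2 → F) → F} {Q : (β → F) → F} {B : (β → F) → (β → F) → F}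
  {f : (Fin 2 × β → F) → (Fin 2 × β → F) → F}

namespace Tens

variable (T : Tens f₁ Q B f)

include T

lemma R_ten (w : β → F) (u : Fin 2 → F) (x : β → F) : R B w (Cfsg.Agent.H872.ten u x) = B w x • u := by
  rw [R, rc_ten, T.qf.rB_dot]

lemma R_add (w w' : β → F) (v : Fin 2 × β → F) : R B (w + w') v = R B w v + R B w' v := by
  funext i
  simp only [R, rc_apply, T.qf.rB_add, Pi.add_apply, add_mul, Finset.sum_add_distrib]

lemma R_smul (c : F) (w : β → F) (v : Fin 2 × β → F) : R B (c • w) v = c • R B w v := by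
  funext i
  simp only [R, rc_apply, T.qf.rB_smul, Pi.smul_apply, smul_eq_mul, Finset.mul_sum, mul_assoc]

lemma f_zero_left (v : Fin 2 × β → F) : f 0 v = 0 := by
  have := T.bil.smul_left 0 0 v
  simpa using this

lemma f_zero_right (v : Fin 2 × β → F) : f v 0 = 0 := by
  have := T.bil.smul_right 0 v 0
  simpa using this

lemma f₁_zero_left (v : Fin 2 → F) : f₁ 0 v = 0 := by
  have := T.sym.bilinear.smul_left 0 0 v
  simpa using this

lemma f_sum_left {κ : Type} (s : Finset κ) (g : κ → Fin 2 × β → F) (v : Fin 2 × β → F) :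
    f (∑ i ∈ s, g i) v = ∑ i ∈ s, f (g i) v := by
  classical
  induction s using Finset.induction_on with
  | empty => simp [T.f_zero_left]
  | insert a s ha ih => rw [Finset.sum_insert ha, Finset.sum_insert ha, T.bil.add_left, ih]

lemma f₁_sum_left {κ : Type} (s : Finset κ) (g : κ → Fin 2 → F) (v : Fin 2 → F) :
    f₁ (∑ i ∈ s, g i) v = ∑ i ∈ s, f₁ (g i) v := by
  classical
  induction s using Finset.induction_on with
  | empty => simp [T.f₁_zero_left]
  | insert a s ha ih => rw [Finset.sum_insert ha, Finset.sum_insert ha, T.sym.bilinear.add_left, ih]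

lemma form_R (v : Fin 2 × β → F) (u : Fin 2 → F) (w : β → F) :
    f v (Cfsg.Agent.H872.ten u w) = f₁ (R B w v) u := by
  conv_lhs => rw [eq_sum_ten v]
  conv_rhs => rw [eq_sum_ten v]
  rw [T.f_sum_left, map_sum, T.f₁_sum_left]
  apply Finset.sum_congr rfl
  intro i _
  rw [T.ten, T.R_ten, T.sym.bilinear.smul_left, T.qf.comm w, mul_comm]

lemma f_symm (v w : Fin 2 × β → F) : f v w = - f w v := by
  have h : ∀ v u w, f v (Cfsg.Agent.H872.ten u w) = - f (Cfsg.Agent.H872.ten u w) v := by
    intro v u w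
    conv_lhs => rw [eq_sum_ten v]
    conv_rhs => rw [eq_sum_ten v]
    rw [T.f_sum_left]
    have h2 : ∀ (s : Finset (Fin 2)) (g : Fin 2 → Fin 2 × β → F) (x : Fin 2 × β → F),
        f x (∑ i ∈ s, g i) = ∑ i ∈ s, f x (g i) := by
      intro s g x
      classical
      induction s using Finset.induction_on with
      | empty => simp [T.f_zero_right]
      | insert a s ha ih => rw [Finset.sum_insert ha, Finset.sum_insert ha, T.bil.add_right, ih]
    rw [h2, ← Finset.sum_neg_distrib]
    apply Finset.sum_congr rfl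
    intro i _
    rw [T.ten, T.ten, T.sym.skew, T.qf.comm w]
    ring
  have h2 : ∀ (s : Finset (Fin 2)) (g : Fin 2 → Fin 2 × β → F) (x : Fin 2 × β → F),
      f x (∑ i ∈ s, g i) = ∑ i ∈ s, f x (g i) := by
    intro s g x
    classical
    induction s using Finset.induction_on with
    | empty => simp [T.f_zero_right]
    | insert a s ha ih => rw [Finset.sum_insert ha, Finset.sum_insert ha, T.bil.add_right, ih]
  conv_lhs => rw [eq_sum_ten w]
  conv_rhs => rw [eq_sum_ten w]
  rw [h2, T.f_sum_left, ← Finset.sum_neg_distrib]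
  exact Finset.sum_congr rfl (fun i _ => h _ _ _)

/-- A vector all of whose contractions with `s^⊥` vanish lies in `U ⊗ s`. -/
lemma exists_ten_of_R {s : β → F} (hs : s ≠ 0) {z : Fin 2 × β → F}
    (hz : ∀ b, B s b = 0 → R B b z = 0) : ∃ u, z = Cfsg.Agent.H872.ten u s := by
  obtain ⟨y, hy⟩ := T.nd s hs
  set y' := (B s y)⁻¹ • y with hy'
  have hsy : B s y' = 1 := by rw [hy', T.qf.smul_right, inv_mul_cancel₀ hy]
  refine ⟨R B y' z, ?_⟩
  have key : ∀ b, R B b (z - Cfsg.Agent.H872.ten (R B y' z) s) = 0 := by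
    intro b
    have h1 : B s (b - B s b • y') = 0 := by
      rw [T.qf.sub_right, T.qf.smul_right, hsy, mul_one, sub_self]
    have h2 := hz _ h1
    have h3 : R B (b - B s b • y') z = R B b z - B s b • R B y' z := by
      rw [sub_eq_add_neg, T.R_add, ← neg_smul, T.R_smul, neg_smul, ← sub_eq_add_neg]
    rw [h3] at h2
    rw [map_sub, T.R_ten, T.qf.comm b s]
    exact h2
  -- all contractions vanish
  have hzero : z - Cfsg.Agent.H872.ten (R B y' z) s = 0 := by
    set z' := z - Cfsg.Agent.H872.ten (R B y' z) s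
    funext ⟨i, j⟩
    obtain ⟨w, hw⟩ := T.qf.exists_rB T.nd (Pi.single j 1)
    have h4 := congrFun (key w) i
    simp only [R, rc_apply, hw, Pi.zero_apply] at h4
    rw [Finset.sum_eq_single j] at h4
    · simpa using h4
    · intro k _ hk
      rw [Pi.single_eq_of_ne hk, zero_mul]
    · intro h; exact absurd (Finset.mem_univ j) h
  exact sub_eq_zero.mp hzero

lemma eq_zero_of_f₁ {u : Fin 2 → F} (h : ∀ u', f₁ u u' = 0) : u = 0 := by
  by_contra hu
  obtain ⟨x, hx⟩ := (T.sym.nondegenerate u hu).2
  exact hx (h x)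

/-- `z ⟂ P^⊥` implies `z ∈ P` for `P = U ⊗ s`. -/
lemma exists_ten_of_perp {s : β → F} (hs : s ≠ 0) {z : Fin 2 × β → F}
    (hz : ∀ v, R B s v = 0 → f z v = 0) : ∃ u, z = Cfsg.Agent.H872.ten u s := by
  apply T.exists_ten_of_R hs
  intro b hb
  apply T.eq_zero_of_f₁
  intro u
  rw [← T.form_R]
  apply hz
  rw [T.R_ten, hb, zero_smul]

/-- self-adjoint endomorphisms of `F²` are scalar -/
lemma scalar_of_selfAdj (γ : (Fin 2 → F) → (Fin 2 → F)) (hadd : ∀ u v, γ (u + v) = γ u + γ v)
    (h : ∀ u u', f₁ (γ u) u' = f₁ u (γ u')) : ∃ c : F, ∀ u, γ u = c • u := by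
  have h0 : ∀ u, f₁ (γ u) u = 0 := by
    intro u
    have h1 := h u u
    have h2 := T.sym.skew u (γ u)
    rw [h2] at h1
    have h3 : (2 : F) * f₁ (γ u) u = 0 := by linear_combination h1
    exact (mul_eq_zero.mp h3).resolve_left T.two
  set e : Fin 2 → F := Pi.single 0 1
  set e' : Fin 2 → F := Pi.single 1 1
  have hexp : ∀ u : Fin 2 → F, u = u 0 • e + u 1 • e' := by
    intro u
    funext i
    fin_cases i <;> simp [e, e']
  have hne : f₁ e e' ≠ 0 := by
    intro h1
    have hee : f₁ e e = 0 := T.sym.alternating e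
    have : e = 0 := by
      apply T.eq_zero_of_f₁
      intro u'
      rw [hexp u', T.sym.bilinear.add_right, T.sym.bilinear.smul_right, T.sym.bilinear.smul_right, hee, h1]
      ring
    have := congrFun this 0
    simp [e] at this
  -- γ u ∥ u
  have hpar : ∀ u v, f₁ v u = 0 → u ≠ 0 → ∃ c : F, v = c • u := by
    intro u v huv hu
    obtain ⟨w, hw⟩ := (T.sym.nondegenerate u hu).2
    refine ⟨f₁ v w / f₁ u w, ?_⟩
    have : v - (f₁ v w / f₁ u w) • u = 0 := by
      apply T.eq_zero_of_f₁
      have h5 : ∀ z, ∃ a b : F, z = a • u + b • w := by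
        intro z
        -- determinant argument through coordinates
        have hd : u 0 * w 1 - u 1 * w 0 ≠ 0 := by
          intro h6
          apply hw
          rw [hexp u, hexp w]
          simp only [T.sym.bilinear.add_left, T.sym.bilinear.add_right, T.sym.bilinear.smul_left,
            T.sym.bilinear.smul_right, T.sym.alternating, T.sym.skew e' e]
          linear_combination f₁ e e' * h6
        refine ⟨(z 0 * w 1 - z 1 * w 0) / (u 0 * w 1 - u 1 * w 0),
          (u 0 * z 1 - u 1 * z 0) / (u 0 * w 1 - u 1 * w 0), ?_⟩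
        funext i
        fin_cases i
        · simp only [Fin.zero_eta, Pi.add_apply, Pi.smul_apply, smul_eq_mul]
          rw [div_mul_eq_mul_div, div_mul_eq_mul_div, ← add_div, eq_div_iff hd]
          ring
        · simp only [Fin.mk_one, Pi.add_apply, Pi.smul_apply, smul_eq_mul]
          rw [div_mul_eq_mul_div, div_mul_eq_mul_div, ← add_div, eq_div_iff hd]
          ring
      intro z
      obtain ⟨a, b, rfl⟩ := h5 z
      have h7 : ∀ x, f₁ (v - (f₁ v w / f₁ u w) • u) x = f₁ v x - (f₁ v w / f₁ u w) * f₁ u x := by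
        intro x
        rw [sub_eq_add_neg, T.sym.bilinear.add_left, ← neg_smul, T.sym.bilinear.smul_left]
        ring
      rw [h7]
      simp only [T.sym.bilinear.add_right, T.sym.bilinear.smul_right, huv, T.sym.alternating u]
      field_simp
      ring
    exact sub_eq_zero.mp this
  have he : e ≠ 0 := fun h => hne (by rw [h, T.f₁_zero_left])
  have he' : e' ≠ 0 := fun h => hne (by rw [h]; have := T.sym.bilinear.smul_right 0 e 0; simpa using this)
  obtain ⟨c, hc⟩ := hpar e (γ e) (h0 e) he
  obtain ⟨c', hc'⟩ := hpar e' (γ e') (h0 e') he'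
  have hcc : c = c' := by
    have h1 := h e e'
    rw [hc, hc', T.sym.bilinear.smul_left, T.sym.bilinear.smul_right] at h1
    exact mul_right_cancel₀ hne h1
  subst hcc
  refine ⟨c, fun u => ?_⟩
  by_cases hu : u = 0
  · subst hu
    have := hadd 0 0
    rw [add_zero] at this
    have h1 : γ 0 = 0 := by
      have := congrArg (fun z => z - γ 0) this
      simpa using this.symm
    rw [h1, smul_zero]
  · obtain ⟨d, hd⟩ := hpar u (γ u) (h0 u) hu
    -- compare with e or e'
    rw [hd]
    by_cases hue : f₁ u e = 0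
    · have hue' : f₁ u e' ≠ 0 := by
        intro h2
        apply hu
        apply T.eq_zero_of_f₁
        intro z
        rw [hexp z, T.sym.bilinear.add_right, T.sym.bilinear.smul_right, T.sym.bilinear.smul_right, hue, h2]
        ring
      have h1 := h u e'
      rw [hd, hc', T.sym.bilinear.smul_left, T.sym.bilinear.smul_right] at h1
      rw [mul_right_cancel₀ hue' h1]
    · have h1 := h u e
      rw [hd, hc, T.sym.bilinear.smul_left, T.sym.bilinear.smul_right] at h1
      rw [mul_right_cancel₀ hue h1]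

end Tens

end Cfsg.Agent.H924.Ten
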