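import Cfsg.Agent.H924.TenBase

/-!
# `Sp_2(q) ⊗ O_n(q)` in `Sp_{2n}(q)`: elements centralising `P^⊥` (helper924)
-/

set_option autoImplicit false
set_option linter.unusedSectionVars false

open Cfsg Cfsg.Geo Matrix
open scoped Kronecker

namespace Cfsg.Agent.H924.Ten

open Cfsg.Agent.H929 (QF rB)
open Cfsg.Agent.H872

theorem exists_gl_of_injective {F : Type*} [Field F] {ι : Type} [Fintype ι] [DecidableEq ι]
    (L : (ι → F) →ₗ[F] (ι → F))
    (hL : ∀ v, L v = 0 → v = 0) : ∃ g : GL ι F, ∀ v, (g : Matrix ι ι F) *ᵥ v = L v := by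
  have hinj : Function.Injective L := by
    intro v w hvw
    have := hL (v - w) (by rw [map_sub, hvw, sub_self])
    exact sub_eq_zero.mp this
  let E := LinearEquiv.ofInjectiveEndo L hinj
  have h1 : LinearMap.toMatrix' L * LinearMap.toMatrix' (E.symm : (ι → F) →ₗ[F] (ι → F)) = 1 := by
    rw [← LinearMap.toMatrix'_comp]
    have : L ∘ₗ (E.symm : (ι → F) →ₗ[F] (ι → F)) = LinearMap.id := by
      ext1
      apply LinearMap.ext
      intro v
      show L (E.symm (Pi.single _ v)) = Pi.single _ v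
      exact E.apply_symm_apply _
    rw [this, LinearMap.toMatrix'_id]
  have h2 : LinearMap.toMatrix' (E.symm : (ι → F) →ₗ[F] (ι → F)) * LinearMap.toMatrix' L = 1 :=
    mul_eq_one_comm.mp h1
  refine ⟨⟨LinearMap.toMatrix' L, _, h1, h2⟩, fun v => ?_⟩
  show LinearMap.toMatrix' L *ᵥ v = L v
  rw [← Matrix.toLin'_apply, Matrix.toLin'_toMatrix']

theorem exists_sq_add_sq {F : Type*} [Field F] [Finite F] (h2 : (2 : F) ≠ 0) (c : F) :
    ∃ x y : F, x ^ 2 + y ^ 2 = c := by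
  have := Fintype.ofFinite F
  have hodd : Fintype.card F % 2 = 1 := by
    have h3 : ringChar F ≠ 2 := by
      intro h
      apply h2
      have h4 := ringChar.Nat.cast_ringChar (R := F)
      rw [h] at h4
      exact_mod_cast h4
    exact FiniteField.odd_card_of_char_ne_two h3
  have h := FiniteField.exists_root_sum_quadratic (R := F) (f := Polynomial.X ^ 2)
    (g := Polynomial.X ^ 2 - Polynomial.C c) (Polynomial.degree_X_pow 2)
    (Polynomial.degree_X_pow_sub_C (by decide) _) hodd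
  obtain ⟨a, b, hab⟩ := h
  refine ⟨a, b, ?_⟩
  simp only [Polynomial.eval_pow, Polynomial.eval_X, Polynomial.eval_sub, Polynomial.eval_C] at hab
  linear_combination hab

variable {β : Type} [Fintype β] [DecidableEq β] {F : Type*} [Field F]
variable {f₁ : (Fin 2 → F) → (Fin 2 → F) → F} {Q : (β → F) → F} {B : (β → F) → (β → F) → F}
  {f : (Fin 2 × β → F) → (Fin 2 × β → F) → F}

/-- An overgroup of `Sp(U) ⊗ O(W)` (together with the similitudes) consisting of isometries. -/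
structure Grp (f₁ : (Fin 2 → F) → (Fin 2 → F) → F) (B : (β → F) → (β → F) → F)
    (f : (Fin 2 × β → F) → (Fin 2 × β → F) → F) (M : Subgroup (GL (Fin 2 × β) F)) : Prop where
  iso : ∀ g ∈ M, ∀ v w, f ((g : Matrix (Fin 2 × β) (Fin 2 × β) F) *ᵥ v) ((g : Matrix (Fin 2 × β) (Fin 2 × β) F) *ᵥ w) = f v w
  mem : ∀ (a : GL (Fin 2) F) (b : GL β F) (μ : F), μ ≠ 0 →
    (∀ u v, f₁ ((a : Matrix _ _ F) *ᵥ u) ((a : Matrix _ _ F) *ᵥ v) = μ * f₁ u v) →
    (∀ x y, B ((b : Matrix _ _ F) *ᵥ x) ((b : Matrix _ _ F) *ᵥ y) = μ⁻¹ * B x y) → kr (a, b) ∈ M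

/-- `g` is the central element `v ↦ v + ξ(R s v) ⊗ s`. -/
def Zel (B : (β → F) → (β → F) → F) (s : β → F) (ξ : (Fin 2 → F) →ₗ[F] (Fin 2 → F))
    (g : GL (Fin 2 × β) F) : Prop :=
  ∀ v, (g : Matrix (Fin 2 × β) (Fin 2 × β) F) *ᵥ v = v + ten (ξ (R B s v)) s

/-- transvection of `U` as a linear map `u ↦ c f₁(u, e) e` -/
def tl (T : IsSymplecticForm f₁) (c : F) (e : Fin 2 → F) : (Fin 2 → F) →ₗ[F] (Fin 2 → F) where
  toFun u := (c * f₁ u e) • e
  map_add' u v := by rw [T.bilinear.add_left, mul_add, add_smul]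
  map_smul' d u := by
    rw [T.bilinear.smul_left, RingHom.id_apply, smul_smul]
    congr 1
    ring

lemma tl_apply (T : IsSymplecticForm f₁) (c : F) (e u : Fin 2 → F) : tl T c e u = (c * f₁ u e) • e := rfl

lemma tl_add (T : IsSymplecticForm f₁) (c d : F) (e : Fin 2 → F) : tl T c e + tl T d e = tl T (c + d) e := by
  apply LinearMap.ext
  intro u
  rw [LinearMap.add_apply, tl_apply, tl_apply, tl_apply, add_mul, add_smul]

lemma tl_smul_vec (T : IsSymplecticForm f₁) (c d : F) (e : Fin 2 → F) : tl T c (d • e) = tl T (d ^ 2 * c) e := by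
  apply LinearMap.ext
  intro u
  rw [tl_apply, tl_apply, T.bilinear.smul_right, smul_smul]
  congr 1
  ring

lemma exists_tU (T : IsSymplecticForm f₁) (c : F) (e : Fin 2 → F) :
    ∃ a : GL (Fin 2) F, (∀ u, (a : Matrix _ _ F) *ᵥ u = u + (c * f₁ u e) • e) ∧
      ∀ u v, f₁ ((a : Matrix _ _ F) *ᵥ u) ((a : Matrix _ _ F) *ᵥ v) = f₁ u v := by
  obtain ⟨a, ha⟩ := exists_gl_of_injective (LinearMap.id + tl T c e) (by
    intro u hu
    rw [LinearMap.add_apply, LinearMap.id_apply, tl_apply] at hu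
    have h1 : f₁ (u + (c * f₁ u e) • e) e = 0 := by
      rw [hu]
      have := T.bilinear.smul_left 0 0 e
      simpa using this
    rw [T.bilinear.add_left, T.bilinear.smul_left, T.alternating e, mul_zero, add_zero] at h1
    rw [h1] at hu
    simpa using hu)
  have ha' : ∀ u, (a : Matrix _ _ F) *ᵥ u = u + (c * f₁ u e) • e := by
    intro u; rw [ha, LinearMap.add_apply, LinearMap.id_apply, tl_apply]
  refine ⟨a, ha', fun u v => ?_⟩
  rw [ha', ha', T.bilinear.add_left, T.bilinear.add_right, T.bilinear.add_right, T.bilinear.smul_left,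
    T.bilinear.smul_left, T.bilinear.smul_right, T.bilinear.smul_right, T.alternating e, T.skew e v]
  ring

/-- `Sp(U)` is transitive on nonzero vectors. -/
lemma exists_map (T : IsSymplecticForm f₁) {e e' : Fin 2 → F} (he : e ≠ 0) (he' : e' ≠ 0) :
    ∃ a : GL (Fin 2) F, (a : Matrix _ _ F) *ᵥ e = e' ∧
      ∀ u v, f₁ ((a : Matrix _ _ F) *ᵥ u) ((a : Matrix _ _ F) *ᵥ v) = f₁ u v := by
  have step : ∀ {e e' : Fin 2 → F}, f₁ e e' ≠ 0 → ∃ a : GL (Fin 2) F, (a : Matrix _ _ F) *ᵥ e = e' ∧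
      ∀ u v, f₁ ((a : Matrix _ _ F) *ᵥ u) ((a : Matrix _ _ F) *ᵥ v) = f₁ u v := by
    intro e e' h
    obtain ⟨a, ha, hiso⟩ := exists_tU T (f₁ e e')⁻¹ (e' - e)
    refine ⟨a, ?_, hiso⟩
    rw [ha, sub_eq_add_neg, T.bilinear.add_right]
    have : f₁ e (-e) = 0 := by
      have := T.bilinear.smul_right (-1) e e
      rw [T.alternating e, mul_zero] at this
      simpa using this
    rw [this, add_zero, inv_mul_cancel₀ h, one_smul]
    abel
  by_cases h : f₁ e e' = 0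
  · obtain ⟨x, hx⟩ := (T.nondegenerate e he).2
    obtain ⟨y, hy⟩ := (T.nondegenerate e' he').1
    obtain ⟨z, hz1, hz2⟩ : ∃ z, f₁ e z ≠ 0 ∧ f₁ z e' ≠ 0 := by
      by_cases h1 : f₁ x e' = 0
      · by_cases h2 : f₁ e y = 0
        · refine ⟨x + y, ?_, ?_⟩
          · rw [T.bilinear.add_right, h2, add_zero]; exact hx
          · rw [T.bilinear.add_left, h1, zero_add]; exact hy
        · exact ⟨y, h2, hy⟩
      · exact ⟨x, hx, h1⟩
    obtain ⟨a, ha, ha'⟩ := step hz1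
    obtain ⟨b, hb, hb'⟩ := step hz2
    refine ⟨b * a, ?_, ?_⟩
    · rw [Units.val_mul, ← Matrix.mulVec_mulVec, ha, hb]
    · intro u v
      rw [Units.val_mul, ← Matrix.mulVec_mulVec, ← Matrix.mulVec_mulVec, hb', ha']
  · exact step h

namespace Tens

variable (T : Tens f₁ Q B f) {M : Subgroup (GL (Fin 2 × β) F)} (hM : Grp f₁ B f M)

include T

lemma kr_one_mem (hM : Grp f₁ B f M) {a : GL (Fin 2) F}
    (ha : ∀ u v, f₁ ((a : Matrix _ _ F) *ᵥ u) ((a : Matrix _ _ F) *ᵥ v) = f₁ u v) : kr (a, (1 : GL β F)) ∈ M :=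
  hM.mem a 1 1 one_ne_zero (by intro u v; rw [ha, one_mul]) (by intro x y; simp)

lemma one_kr_mem (hM : Grp f₁ B f M) {b : GL β F}
    (hb : ∀ x y, B ((b : Matrix _ _ F) *ᵥ x) ((b : Matrix _ _ F) *ᵥ y) = B x y) : kr ((1 : GL (Fin 2) F), b) ∈ M :=
  hM.mem 1 b 1 one_ne_zero (by intro u v; simp) (by intro x y; rw [hb]; simp)

lemma R_self {s : β → F} (hs : Q s = 0) (u : Fin 2 → F) : R B s (Cfsg.Agent.H872.ten u s) = 0 := by
  rw [T.R_ten, T.qf.self, hs, mul_zero, zero_smul]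

lemma R_kr (w : β → F) (a : GL (Fin 2) F) (v : Fin 2 × β → F) :
    R B w ((kr (a, (1 : GL β F)) : Matrix (Fin 2 × β) (Fin 2 × β) F) *ᵥ v) = (a : Matrix _ _ F) *ᵥ (R B w v) := by
  rw [R, coe_kr, rc_kron]
  simp

/-- An isometry which fixes `P^⊥` pointwise is a central element. -/
lemma exists_zel {s : β → F} (hs : s ≠ 0) (hQs : Q s = 0) {g : GL (Fin 2 × β) F}
    (hg : ∀ v w, f ((g : Matrix (Fin 2 × β) (Fin 2 × β) F) *ᵥ v) ((g : Matrix (Fin 2 × β) (Fin 2 × β) F) *ᵥ w) = f v w)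
    (hfix : ∀ v, R B s v = 0 → (g : Matrix (Fin 2 × β) (Fin 2 × β) F) *ᵥ v = v) :
    ∃ ξ : (Fin 2 → F) →ₗ[F] (Fin 2 → F), (∀ u u', f₁ (ξ u) u' = - f₁ u (ξ u')) ∧ Zel B s ξ g := by
  obtain ⟨y₀, hy₀⟩ := T.nd s hs
  set y := (B s y₀)⁻¹ • y₀ with hy
  have hsy : B s y = 1 := by rw [hy, T.qf.smul_right, inv_mul_cancel₀ hy₀]
  have hys : B y s = 1 := by rw [T.qf.comm, hsy]
  have hss : B s s = 0 := by rw [T.qf.self, hQs, mul_zero]
  -- `ten · y` as a linear map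
  let ty : (Fin 2 → F) →ₗ[F] (Fin 2 × β → F) :=
    { toFun := fun u => Cfsg.Agent.H872.ten u y
      map_add' := fun u v => ten_add_left u v y
      map_smul' := fun c u => ten_smul_left c u y }
  let ξ : (Fin 2 → F) →ₗ[F] (Fin 2 → F) :=
    (R B y) ∘ₗ ((Matrix.toLin' (g : Matrix (Fin 2 × β) (Fin 2 × β) F) - LinearMap.id) ∘ₗ ty)
  have hξ : ∀ u, ξ u = R B y ((g : Matrix (Fin 2 × β) (Fin 2 × β) F) *ᵥ (Cfsg.Agent.H872.ten u y) - Cfsg.Agent.H872.ten u y) := by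
    intro u
    simp [ξ, ty, Matrix.toLin'_apply]
  have hperp : ∀ u, ∃ u', (g : Matrix (Fin 2 × β) (Fin 2 × β) F) *ᵥ (Cfsg.Agent.H872.ten u y) - Cfsg.Agent.H872.ten u y =
      Cfsg.Agent.H872.ten u' s := by
    intro u
    apply T.exists_ten_of_perp hs
    intro v hv
    have h1 := hg (Cfsg.Agent.H872.ten u y) v
    rw [hfix v hv] at h1
    rw [sub_eq_add_neg, T.bil.add_left, h1]
    have := T.bil.smul_left (-1) (Cfsg.Agent.H872.ten u y) v
    rw [neg_one_smul] at this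
    rw [this]; ring
  have hgy : ∀ u, (g : Matrix (Fin 2 × β) (Fin 2 × β) F) *ᵥ (Cfsg.Agent.H872.ten u y) =
      Cfsg.Agent.H872.ten u y + Cfsg.Agent.H872.ten (ξ u) s := by
    intro u
    obtain ⟨u', hu'⟩ := hperp u
    rw [hξ, hu', T.R_ten, hys, one_smul, ← hu']
    abel
  refine ⟨ξ, ?_, ?_⟩
  · intro u u'
    have h1 := hg (Cfsg.Agent.H872.ten u y) (Cfsg.Agent.H872.ten u' y)
    rw [hgy, hgy, T.bil.add_left, T.bil.add_right, T.bil.add_right, T.ten, T.ten, T.ten, T.ten, hsy, hys, hss] at h1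
    linear_combination h1
  · intro v
    have h1 : R B s (v - Cfsg.Agent.H872.ten (R B s v) y) = 0 := by
      rw [map_sub, T.R_ten, hsy, one_smul, sub_self]
    have h2 := hfix _ h1
    rw [Matrix.mulVec_sub, hgy] at h2
    have h3 : (g : Matrix (Fin 2 × β) (Fin 2 × β) F) *ᵥ v = v - Cfsg.Agent.H872.ten (R B s v) y +
        (Cfsg.Agent.H872.ten (R B s v) y + Cfsg.Agent.H872.ten (ξ (R B s v)) s) := by
      rw [← h2]; abel
    rw [h3]; abel

lemma zel_mul {s : β → F} (hQs : Q s = 0) {ξ ξ' : (Fin 2 → F) →ₗ[F] (Fin 2 → F)} {g g' : GL (Fin 2 × β) F}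
    (h : Zel B s ξ g) (h' : Zel B s ξ' g') : Zel B s (ξ + ξ') (g * g') := by
  intro v
  rw [Units.val_mul, ← Matrix.mulVec_mulVec, h' v, Matrix.mulVec_add, h, h, T.R_self hQs, map_zero]
  have h0 : Cfsg.Agent.H872.ten (0 : Fin 2 → F) s = 0 := ten_zero_left s
  rw [h0, LinearMap.add_apply, ten_add_left]
  abel

lemma zel_inv {s : β → F} (hQs : Q s = 0) {ξ : (Fin 2 → F) →ₗ[F] (Fin 2 → F)} {g : GL (Fin 2 × β) F}
    (h : Zel B s ξ g) : Zel B s (-ξ) g⁻¹ := by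
  intro v
  have h1 : (g : Matrix (Fin 2 × β) (Fin 2 × β) F) *ᵥ (v + Cfsg.Agent.H872.ten ((-ξ) (R B s v)) s) = v := by
    rw [Matrix.mulVec_add, h, h, T.R_self hQs, map_zero, ten_zero_left, LinearMap.neg_apply, ten_neg_left]
    abel
  calc ((g⁻¹ : GL (Fin 2 × β) F) : Matrix (Fin 2 × β) (Fin 2 × β) F) *ᵥ v
      = ((g⁻¹ : GL (Fin 2 × β) F) : Matrix (Fin 2 × β) (Fin 2 × β) F) *ᵥ ((g : Matrix (Fin 2 × β) (Fin 2 × β) F) *ᵥ
          (v + Cfsg.Agent.H872.ten ((-ξ) (R B s v)) s)) := by rw [h1]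
    _ = _ := by rw [Matrix.mulVec_mulVec, ← Units.val_mul, inv_mul_cancel, Units.val_one, Matrix.one_mulVec]

/-- conjugation by `a ⊗ 1` -/
lemma zel_conj {s : β → F} {ξ ξ' : (Fin 2 → F) →ₗ[F] (Fin 2 → F)} {g : GL (Fin 2 × β) F}
    (h : Zel B s ξ g) (a : GL (Fin 2) F) (hξ : ∀ u, ξ' ((a : Matrix _ _ F) *ᵥ u) = (a : Matrix _ _ F) *ᵥ (ξ u)) :
    Zel B s ξ' (kr (a, (1 : GL β F)) * g * (kr (a, (1 : GL β F)))⁻¹) := by
  intro v
  set w := (((kr (a, (1 : GL β F)))⁻¹ : GL (Fin 2 × β) F) : Matrix (Fin 2 × β) (Fin 2 × β) F) *ᵥ v with hw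
  have hv : v = (kr (a, (1 : GL β F)) : Matrix (Fin 2 × β) (Fin 2 × β) F) *ᵥ w := by
    rw [hw, Matrix.mulVec_mulVec, ← Units.val_mul, mul_inv_cancel, Units.val_one, Matrix.one_mulVec]
  rw [Units.val_mul, Units.val_mul, ← Matrix.mulVec_mulVec, ← Matrix.mulVec_mulVec, ← hw, h w, Matrix.mulVec_add,
    ← hv]
  congr 1
  rw [kr_mulVec_ten]
  conv_rhs => rw [hv]
  rw [T.R_kr, hξ]
  simp

end Tens

end Cfsg.Agent.H924.Ten
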