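import Cfsg.Agent.H924.TenTrans

/-!
# `Sp_2(q) ⊗ O_n(q)` in `Sp_{2n}(q)`: the unipotent radical (helper924)
-/

set_option autoImplicit false
set_option linter.unusedSectionVars false

open Cfsg Cfsg.Geo Matrix
open scoped Kronecker

namespace Cfsg.Agent.H924.Ten

open Cfsg.Agent.H929 (QF rB)
open Cfsg.Agent.H872

variable {β : Type} [Fintype β] [DecidableEq β] {F : Type*} [Field F]
variable {f₁ : (Fin 2 → F) → (Fin 2 → F) → F} {Q : (β → F) → F} {B : (β → F) → (β → F) → F}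
  {f : (Fin 2 × β → F) → (Fin 2 × β → F) → F}

/-- the Siegel map on `W` -/
def Sieg (Q : (β → F) → F) (B : (β → F) → (β → F) → F) (s a : β → F) (h : GL β F) : Prop :=
  ∀ x, (h : Matrix β β F) *ᵥ x = x + B x s • a - B x a • s - (Q a * B x s) • s

/-- no nontrivial element of `M` fixes `P_s^⊥` pointwise -/
def NoC (B : (β → F) → (β → F) → F) (M : Subgroup (GL (Fin 2 × β) F)) (s : β → F) : Prop :=
  ∀ g ∈ M, (∀ v, R B s v = 0 → (g : Matrix (Fin 2 × β) (Fin 2 × β) F) *ᵥ v = v) → g = 1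

namespace Tens

variable (T : Tens f₁ Q B f) {M : Subgroup (GL (Fin 2 × β) F)} (hM : Grp f₁ B f M)

include T

lemma exists_sieg {s a : β → F} (hQs : Q s = 0) (hsa : B s a = 0) :
    ∃ h : GL β F, Sieg Q B s a h ∧ ∀ x, Q ((h : Matrix β β F) *ᵥ x) = Q x := by
  obtain ⟨h, _, h1, h2⟩ := T.qf.exists_siegel hQs hsa
  exact ⟨h, h1, h2⟩

lemma R_zero (v : Fin 2 × β → F) : R B 0 v = 0 := by
  have := T.R_smul 0 0 v
  simpa using this

lemma R_neg (w : β → F) (v : Fin 2 × β → F) : R B (-w) v = - R B w v := by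
  have := T.R_smul (-1) w v
  simpa using this

lemma R_coord (w : β → F) (v : Fin 2 × β → F) (i : Fin 2) : R B w v i = B w (fun j => v (i, j)) := by
  rw [R, rc_apply, ← T.qf.rB_dot]
  rfl

/-- action of `1 ⊗ h` for a Siegel transformation -/
lemma kr_sieg {s a : β → F} {h : GL β F} (hh : Sieg Q B s a h) (v : Fin 2 × β → F) :
    (kr ((1 : GL (Fin 2) F), h) : Matrix (Fin 2 × β) (Fin 2 × β) F) *ᵥ v =
      v + Cfsg.Agent.H872.ten (R B s v) a - Cfsg.Agent.H872.ten (R B a v) s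
        - Q a • Cfsg.Agent.H872.ten (R B s v) s := by
  let A : (Fin 2 × β → F) →ₗ[F] (Fin 2 × β → F) :=
    Matrix.toLin' (kr ((1 : GL (Fin 2) F), h) : Matrix (Fin 2 × β) (Fin 2 × β) F)
  let L : (β → F) → (Fin 2 × β → F) →ₗ[F] (Fin 2 × β → F) := fun w =>
    { toFun := fun v => Cfsg.Agent.H872.ten (R B s v) w
      map_add' := fun x y => by rw [map_add, ten_add_left]
      map_smul' := fun c x => by rw [map_smul, ten_smul_left, RingHom.id_apply] }
  let L' : (Fin 2 × β → F) →ₗ[F] (Fin 2 × β → F) :=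
    { toFun := fun v => Cfsg.Agent.H872.ten (R B a v) s
      map_add' := fun x y => by rw [map_add, ten_add_left]
      map_smul' := fun c x => by rw [map_smul, ten_smul_left, RingHom.id_apply] }
  have key : A = LinearMap.id + L a - L' - Q a • L s := by
    apply linearMap_ext_ten
    intro u w
    show (kr ((1 : GL (Fin 2) F), h) : Matrix (Fin 2 × β) (Fin 2 × β) F) *ᵥ Cfsg.Agent.H872.ten u w =
      Cfsg.Agent.H872.ten u w + Cfsg.Agent.H872.ten (R B s (Cfsg.Agent.H872.ten u w)) a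
        - Cfsg.Agent.H872.ten (R B a (Cfsg.Agent.H872.ten u w)) s
        - Q a • Cfsg.Agent.H872.ten (R B s (Cfsg.Agent.H872.ten u w)) s
    rw [kr_mulVec_ten, Units.val_one, Matrix.one_mulVec, T.R_ten, T.R_ten]
    show Cfsg.Agent.H872.ten u ((h : Matrix β β F) *ᵥ w) = _
    rw [hh w, T.qf.comm s w, T.qf.comm a w]
    funext p
    simp only [ten_apply, Pi.add_apply, Pi.sub_apply, Pi.smul_apply, smul_eq_mul]
    ring
  have := congrArg (fun X : (Fin 2 × β → F) →ₗ[F] (Fin 2 × β → F) => X v) key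
  exact this

/-- linear maps agreeing on `U ⊗ s^⊥` -/
lemma ext_perp {V' : Type*} [AddCommGroup V'] [Module F V'] {s : β → F}
    {X Y : (Fin 2 × β → F) →ₗ[F] V'} (h : ∀ u a, B s a = 0 → X (Cfsg.Agent.H872.ten u a) = Y (Cfsg.Agent.H872.ten u a))
    {v : Fin 2 × β → F} (hv : R B s v = 0) : X v = Y v := by
  rw [eq_sum_ten v, map_sum, map_sum]
  apply Finset.sum_congr rfl
  intro i _
  apply h
  rw [← T.R_coord, hv]
  rfl

/-- contraction on the left factor against `B a` -/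
lemma B_lc (a : β → F) (φ : Fin 2 → F) (v : Fin 2 × β → F) : B a (lc φ v) = φ ⬝ᵥ (R B a v) := by
  conv_lhs => rw [eq_sum_ten v]
  conv_rhs => rw [eq_sum_ten v]
  rw [map_sum, map_sum, T.qf.sum_right, dotProduct_sum]
  apply Finset.sum_congr rfl
  intro i _
  rw [lc_ten, T.R_ten, T.qf.smul_right, dotProduct_smul, smul_eq_mul, mul_comm]

lemma ten_fixed_perp {s : β → F} {g : GL (Fin 2 × β) F}
    (hg : ∀ v w, f ((g : Matrix (Fin 2 × β) (Fin 2 × β) F) *ᵥ v) ((g : Matrix (Fin 2 × β) (Fin 2 × β) F) *ᵥ w) = f v w)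
    {g₁ : GL (Fin 2) F}
    (hs : ∀ u, (g : Matrix (Fin 2 × β) (Fin 2 × β) F) *ᵥ (Cfsg.Agent.H872.ten u s) =
      Cfsg.Agent.H872.ten ((g₁ : Matrix _ _ F) *ᵥ u) s) (v : Fin 2 × β → F)
    (hv : R B s v = 0) : R B s ((g : Matrix (Fin 2 × β) (Fin 2 × β) F) *ᵥ v) = 0 := by
  apply T.eq_zero_of_f₁
  intro u
  rw [← T.form_R]
  have h1 : u = (g₁ : Matrix _ _ F) *ᵥ (((g₁⁻¹ : GL (Fin 2) F) : Matrix (Fin 2) (Fin 2) F) *ᵥ u) := by
    rw [Matrix.mulVec_mulVec, ← Units.val_mul, mul_inv_cancel, Units.val_one, Matrix.one_mulVec]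
  rw [h1, ← hs, hg, T.form_R, hv, T.f₁_zero_left]

/-- **Lemma B**. -/
theorem levi (hM : Grp f₁ B f M) {s : β → F} (hs : s ≠ 0) (hQs : Q s = 0) (hnc : NoC B M s)
    {g : GL (Fin 2 × β) F} (hg : g ∈ M)
    (hP : ∀ u, (g : Matrix (Fin 2 × β) (Fin 2 × β) F) *ᵥ (Cfsg.Agent.H872.ten u s) = Cfsg.Agent.H872.ten u s)
    (hPP : ∀ v, R B s v = 0 → ∃ u, (g : Matrix (Fin 2 × β) (Fin 2 × β) F) *ᵥ v = v + Cfsg.Agent.H872.ten u s) :
    ∃ (a : β → F) (h : GL β F), B s a = 0 ∧ Sieg Q B s a h ∧ kr ((1 : GL (Fin 2) F), h) = g := by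
  obtain ⟨y₀, hy₀⟩ := T.nd s hs
  set y := (B s y₀)⁻¹ • y₀ with hy
  have hsy : B s y = 1 := by rw [hy, T.qf.smul_right, inv_mul_cancel₀ hy₀]
  have hys : B y s = 1 := by rw [T.qf.comm, hsy]
  have hss : B s s = 0 := by rw [T.qf.self, hQs, mul_zero]
  have hiso := hM.iso g hg
  -- Λ
  have hΛ : ∀ v, R B s v = 0 → (g : Matrix (Fin 2 × β) (Fin 2 × β) F) *ᵥ v =
      v + Cfsg.Agent.H872.ten (R B y ((g : Matrix (Fin 2 × β) (Fin 2 × β) F) *ᵥ v - v)) s := by
    intro v hv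
    obtain ⟨u, hu⟩ := hPP v hv
    have h1 : (g : Matrix (Fin 2 × β) (Fin 2 × β) F) *ᵥ v - v = Cfsg.Agent.H872.ten u s := by rw [hu]; abel
    rw [h1, T.R_ten, hys, one_smul, hu]
  -- g commutes with the Siegel elements
  have hcomm : ∀ (a : β → F) (h : GL β F), B s a = 0 → Sieg Q B s a h →
      (∀ x, Q ((h : Matrix β β F) *ᵥ x) = Q x) →
      g * kr ((1 : GL (Fin 2) F), h) = kr ((1 : GL (Fin 2) F), h) * g := by
    intro a h hsa hh hiso'
    set d := kr ((1 : GL (Fin 2) F), h) with hd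
    have hdM : d ∈ M := T.one_kr_mem hM (T.B_iso hiso')
    have hdact : ∀ v, R B s v = 0 → (d : Matrix (Fin 2 × β) (Fin 2 × β) F) *ᵥ v =
        v - Cfsg.Agent.H872.ten (R B a v) s := by
      intro v hv
      rw [T.kr_sieg hh, hv, ten_zero_left, ten_zero_left, smul_zero, add_zero, sub_zero]
    have h1 : (d * g)⁻¹ * (g * d) = 1 := by
      apply hnc _ (M.mul_mem (M.inv_mem (M.mul_mem hdM hg)) (M.mul_mem hg hdM))
      intro v hv
      have h2 : (g : Matrix (Fin 2 × β) (Fin 2 × β) F) *ᵥ ((d : Matrix (Fin 2 × β) (Fin 2 × β) F) *ᵥ v) =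
          (d : Matrix (Fin 2 × β) (Fin 2 × β) F) *ᵥ ((g : Matrix (Fin 2 × β) (Fin 2 × β) F) *ᵥ v) := by
        have hgv : R B s ((g : Matrix (Fin 2 × β) (Fin 2 × β) F) *ᵥ v) = 0 := by
          rw [hΛ v hv, map_add, hv, T.R_self hQs, add_zero]
        obtain ⟨u', hu'⟩ := hPP v hv
        rw [hdact v hv, hdact _ hgv, Matrix.mulVec_sub, hP, hu', map_add, T.R_ten, T.qf.comm a s, hsa, zero_smul,
          add_zero]
      have h3 : ((g * d : GL (Fin 2 × β) F) : Matrix (Fin 2 × β) (Fin 2 × β) F) *ᵥ v =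
          ((d * g : GL (Fin 2 × β) F) : Matrix (Fin 2 × β) (Fin 2 × β) F) *ᵥ v := by
        rw [Units.val_mul, Units.val_mul, ← Matrix.mulVec_mulVec, ← Matrix.mulVec_mulVec, h2]
      rw [Units.val_mul (d * g)⁻¹ (g * d), ← Matrix.mulVec_mulVec, h3, Matrix.mulVec_mulVec,
        ← Units.val_mul, inv_mul_cancel, Units.val_one, Matrix.one_mulVec]
    exact (inv_mul_eq_one.mp h1).symm
  -- z_u
  let z : (Fin 2 → F) → (Fin 2 × β → F) := fun u =>
    (g : Matrix (Fin 2 × β) (Fin 2 × β) F) *ᵥ (Cfsg.Agent.H872.ten u y) - Cfsg.Agent.H872.ten u y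
  have hz : ∀ u, (g : Matrix (Fin 2 × β) (Fin 2 × β) F) *ᵥ (Cfsg.Agent.H872.ten u y) =
      Cfsg.Agent.H872.ten u y + z u := by
    intro u; simp only [z]; abel
  have hzadd : ∀ u u', z (u + u') = z u + z u' := by
    intro u u'
    simp only [z, ten_add_left, Matrix.mulVec_add]
    abel
  have hRz : ∀ u, R B s (z u) = 0 := by
    intro u
    apply T.eq_zero_of_f₁
    intro u'
    rw [← T.form_R]
    have h1 := hiso (Cfsg.Agent.H872.ten u y) (Cfsg.Agent.H872.ten u' s)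
    rw [hP, hz, T.bil.add_left] at h1
    linear_combination h1
  -- (*)
  have hstar : ∀ u a, B s a = 0 → (g : Matrix (Fin 2 × β) (Fin 2 × β) F) *ᵥ (Cfsg.Agent.H872.ten u a) =
      Cfsg.Agent.H872.ten u a - Cfsg.Agent.H872.ten (R B a (z u)) s := by
    intro u a hsa
    obtain ⟨h, hh, hiso'⟩ := T.exists_sieg hQs hsa
    have h1 := hcomm a h hsa hh hiso'
    have h2 : (g : Matrix (Fin 2 × β) (Fin 2 × β) F) *ᵥ
        ((kr ((1 : GL (Fin 2) F), h) : Matrix (Fin 2 × β) (Fin 2 × β) F) *ᵥ (Cfsg.Agent.H872.ten u y)) =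
        (kr ((1 : GL (Fin 2) F), h) : Matrix (Fin 2 × β) (Fin 2 × β) F) *ᵥ
        ((g : Matrix (Fin 2 × β) (Fin 2 × β) F) *ᵥ (Cfsg.Agent.H872.ten u y)) := by
      rw [Matrix.mulVec_mulVec, Matrix.mulVec_mulVec, ← Units.val_mul, ← Units.val_mul, h1]
    rw [hz, Matrix.mulVec_add, T.kr_sieg hh (z u), hRz, ten_zero_left, ten_zero_left, smul_zero, add_zero, sub_zero,
      T.kr_sieg hh, T.R_ten, T.R_ten, hsy, one_smul, ten_smul_left, Matrix.mulVec_sub, Matrix.mulVec_sub,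
      Matrix.mulVec_add, hz, Matrix.mulVec_smul, Matrix.mulVec_smul, hP] at h2
    have h3 : (g : Matrix (Fin 2 × β) (Fin 2 × β) F) *ᵥ (Cfsg.Agent.H872.ten u a) =
      (Cfsg.Agent.H872.ten u y + z u + (g : Matrix (Fin 2 × β) (Fin 2 × β) F) *ᵥ (Cfsg.Agent.H872.ten u a)
        - B a y • Cfsg.Agent.H872.ten u s - Q a • Cfsg.Agent.H872.ten u s)
        - (Cfsg.Agent.H872.ten u y + z u - B a y • Cfsg.Agent.H872.ten u s - Q a • Cfsg.Agent.H872.ten u s) := by
      abel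
    rw [h3, h2]
    abel
  -- self-adjointness
  have hsa : ∀ a, B s a = 0 → ∃ c : F, ∀ u, R B a (z u) = c • u := by
    intro a hsa
    apply T.scalar_of_selfAdj (fun u => R B a (z u))
    · intro u v
      simp only [hzadd, map_add]
    · intro u u'
      have h1 := hiso (Cfsg.Agent.H872.ten u y) (Cfsg.Agent.H872.ten u' a)
      rw [hz, hstar u' a hsa] at h1
      have h2 : ∀ x w w', f x (w - w') = f x w - f x w' := by
        intro x w w'
        rw [sub_eq_add_neg, T.bil.add_right, ← neg_one_smul F w', T.bil.smul_right]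
        ring
      rw [h2, T.bil.add_left, T.bil.add_left, T.ten, T.form_R (z u) u' a, T.form_R (z u) _ s, hRz, T.f₁_zero_left,
        T.ten u y _ s, hys] at h1
      show f₁ (R B a (z u)) u' = f₁ u (R B a (z u'))
      linear_combination h1
  -- a₁
  obtain ⟨u₀, φ, hφ⟩ : ∃ u₀ φ : Fin 2 → F, φ ⬝ᵥ u₀ = 1 :=
    ⟨Pi.single 0 1, Pi.single 0 1, by simp⟩
  set a₁ := lc φ (z u₀) with ha₁
  have hsa₁ : B s a₁ = 0 := by rw [ha₁, T.B_lc, hRz, dotProduct_zero]
  have hR : ∀ a, B s a = 0 → ∀ u, R B a (z u) = B a a₁ • u := by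
    intro a ha u
    obtain ⟨c, hc⟩ := hsa a ha
    have h1 : B a a₁ = c := by
      rw [ha₁, T.B_lc, hc, dotProduct_smul, hφ, smul_eq_mul, mul_one]
    rw [hc, h1]
  obtain ⟨h, hh, hiso'⟩ := T.exists_sieg hQs hsa₁
  refine ⟨a₁, h, hsa₁, hh, ?_⟩
  have hdM : kr ((1 : GL (Fin 2) F), h) ∈ M := T.one_kr_mem hM (T.B_iso hiso')
  have hfin : (kr ((1 : GL (Fin 2) F), h))⁻¹ * g = 1 := by
    apply hnc _ (M.mul_mem (M.inv_mem hdM) hg)
    intro v hv
    have h1 : Matrix.toLin' (g : Matrix (Fin 2 × β) (Fin 2 × β) F) v =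
        Matrix.toLin' (kr ((1 : GL (Fin 2) F), h) : Matrix (Fin 2 × β) (Fin 2 × β) F) v := by
      refine T.ext_perp (s := s) ?_ hv
      intro u a ha
      rw [Matrix.toLin'_apply, Matrix.toLin'_apply, hstar u a ha, T.kr_sieg hh, T.R_ten, T.R_ten, ha, hR a ha,
        zero_smul, ten_zero_left, ten_zero_left, smul_zero, sub_zero, add_zero, T.qf.comm a₁ a]
    rw [Matrix.toLin'_apply, Matrix.toLin'_apply] at h1
    rw [Units.val_mul, ← Matrix.mulVec_mulVec, h1, Matrix.mulVec_mulVec, ← Units.val_mul, inv_mul_cancel,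
      Units.val_one, Matrix.one_mulVec]
  exact inv_mul_eq_one.mp hfin

end Tens

end Cfsg.Agent.H924.Ten
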