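import Cfsg.Agent.H924.TenTI
import Cfsg.Agent.H884.SingMaxPlus

/-!
# `Sp_2(q) ⊗ O_n(q)` in `Sp_{2n}(q)`: the dichotomy (helper924)
-/

set_option autoImplicit false
set_option linter.unusedSectionVars false

open Cfsg Cfsg.Geo Matrix
open scoped Kronecker

namespace Cfsg.Agent.H924.Ten

open Cfsg.Agent.H929 (QF rB)
open Cfsg.Agent.H872

variable {β : Type} [Fintype β] [DecidableEq β] {F : Type*} [Field F]
variable {f₁ : (Fin 2 → F) → (Fin 2 → F) → F} {Q : (β → F) → F} {B : (β → F) → (β → F) → F}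
  {f : (Fin 2 × β → F) → (Fin 2 × β → F) → F}

namespace Tens

variable (T : Tens f₁ Q B f) {M : Subgroup (GL (Fin 2 × β) F)} (hM : Grp f₁ B f M)

include T

/-- **Lemma E**: every vector is fixed by a Siegel element of the second kind. -/
theorem exists_fix [Finite F] (hβ : 5 ≤ Fintype.card β) (v : Fin 2 × β → F) :
    ∃ s a : β → F, s ≠ 0 ∧ Q s = 0 ∧ B s a = 0 ∧ Q a ≠ 0 ∧ R B s v = 0 ∧ R B a v = 0 := by
  let L : (β → F) →ₗ[F] (Fin 2 → F) :=
    { toFun := fun x => R B x v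
      map_add' := fun x y => T.R_add x y v
      map_smul' := fun c x => T.R_smul c x v }
  set W := LinearMap.ker L with hW
  have hmem : ∀ x, x ∈ W ↔ R B x v = 0 := fun x => LinearMap.mem_ker
  have hdim : 3 ≤ Module.finrank F W := by
    have h1 := L.finrank_range_add_finrank_ker
    have h2 := LinearMap.finrank_range_le L
    have h3 : Module.finrank F (LinearMap.range L) ≤ 2 := by
      refine (Submodule.finrank_le _).trans ?_
      simp
    rw [Module.finrank_fintype_fun_eq_card, ← hW] at h1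
    omega
  by_cases hnd : ∀ x ∈ W, x ≠ 0 → ∃ y ∈ W, B x y ≠ 0
  · obtain ⟨s, hsW, hs, hQs⟩ := T.qf.exists_singular T.two W hnd hdim
    obtain ⟨y, hyW, hQy, hsy⟩ := T.qf.exists_hyperbolic W hnd hsW hs hQs
    have hys : B y s = 1 := by rw [T.qf.comm, hsy]
    have hss : B s s = 0 := by rw [T.qf.self, hQs, mul_zero]
    have hyy : B y y = 0 := by rw [T.qf.self, hQy, mul_zero]
    obtain ⟨t, htW, ht⟩ : ∃ t ∈ W, t ∉ Submodule.span F {s, y} := by
      by_contra hcon
      push Not at hcon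
      have h1 : W ≤ Submodule.span F {s, y} := hcon
      have h2 := Submodule.finrank_mono h1
      have h3 : Module.finrank F (Submodule.span F ({s, y} : Set (β → F))) ≤ 2 := by
        classical
        have := finrank_span_finset_le_card (R := F) ({s, y} : Finset (β → F))
        rw [Finset.coe_insert, Finset.coe_singleton] at this
        exact this.trans Finset.card_le_two
      omega
    -- projections
    have hp : ∀ x ∈ W, (x - B x y • s - B x s • y) ∈ W := fun x hx =>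
      W.sub_mem (W.sub_mem hx (W.smul_mem _ hsW)) (W.smul_mem _ hyW)
    have hps : ∀ x, B s (x - B x y • s - B x s • y) = 0 := by
      intro x
      rw [T.qf.sub_right, T.qf.sub_right, T.qf.smul_right, T.qf.smul_right, hss, hsy, T.qf.comm s x]
      ring
    have hpy : ∀ x, B y (x - B x y • s - B x s • y) = 0 := by
      intro x
      rw [T.qf.sub_right, T.qf.sub_right, T.qf.smul_right, T.qf.smul_right, hyy, hys, T.qf.comm y x]
      ring
    set t₀ := t - B t y • s - B t s • y with ht₀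
    have ht₀W : t₀ ∈ W := hp t htW
    have ht₀0 : t₀ ≠ 0 := by
      intro h
      apply ht
      rw [Submodule.mem_span_pair]
      refine ⟨B t y, B t s, ?_⟩
      have h2 : t - B t y • s - B t s • y = 0 := by rw [← ht₀]; exact h
      rw [sub_sub, sub_eq_zero] at h2
      exact h2.symm
    obtain ⟨a, haW, hsa, hQa⟩ : ∃ a ∈ W, B s a = 0 ∧ Q a ≠ 0 := by
      by_cases h1 : Q t₀ = 0
      · obtain ⟨x, hxW, hx⟩ := hnd t₀ ht₀W ht₀0
        set x₀ := x - B x y • s - B x s • y with hx₀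
        have h2 : B t₀ x₀ ≠ 0 := by
          rw [hx₀, T.qf.sub_right, T.qf.sub_right, T.qf.smul_right, T.qf.smul_right, T.qf.comm t₀ s, T.qf.comm t₀ y,
            hps t, hpy t, mul_zero, mul_zero, sub_zero, sub_zero]
          exact hx
        by_cases h3 : Q x₀ = 0
        · refine ⟨t₀ + x₀, W.add_mem ht₀W (hp x hxW), ?_, ?_⟩
          · rw [T.qf.add_right, hps t, hps x, add_zero]
          · rw [T.qf.add, h1, h3, zero_add, zero_add]; exact h2
        · exact ⟨x₀, hp x hxW, hps x, h3⟩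
      · exact ⟨t₀, ht₀W, hps t, h1⟩
    exact ⟨s, a, hs, hQs, hsa, hQa, (hmem s).mp hsW, (hmem a).mp haW⟩
  · push Not at hnd
    obtain ⟨s, hsW, hs, hsy⟩ := hnd
    have hQs : Q s = 0 := by
      have := hsy s hsW
      rw [T.qf.self] at this
      exact (mul_eq_zero.mp this).resolve_left T.two
    obtain ⟨a, haW, hQa⟩ : ∃ a ∈ W, Q a ≠ 0 := by
      by_contra hcon
      push Not at hcon
      have h1 := Cfsg.Agent.H884.SingMaxPlus.two_mul_finrank_le (Cfsg.Agent.H925.nondeg_qf T.hQ) (W := W) hcon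
      rw [Module.finrank_fintype_fun_eq_card] at h1
      have h2 := L.finrank_range_add_finrank_ker
      have h3 : Module.finrank F (LinearMap.range L) ≤ 2 := by
        refine (Submodule.finrank_le _).trans ?_
        simp
      rw [Module.finrank_fintype_fun_eq_card, ← hW] at h2
      omega
    exact ⟨s, a, hs, hQs, hsy a haW, hQa, (hmem s).mp hsW, (hmem a).mp haW⟩

omit T in
/-- the vector stabiliser -/
def vstab (x : Fin 2 × β → F) : Subgroup (GL (Fin 2 × β) F) where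
  carrier := {g | (g : Matrix (Fin 2 × β) (Fin 2 × β) F) *ᵥ x = x}
  one_mem' := by simp
  mul_mem' := by
    intro a b ha hb
    show ((a * b : GL (Fin 2 × β) F) : Matrix (Fin 2 × β) (Fin 2 × β) F) *ᵥ x = x
    rw [gl_mul_mulVec, hb, ha]
  inv_mem' := by
    intro a ha
    show ((a⁻¹ : GL (Fin 2 × β) F) : Matrix (Fin 2 × β) (Fin 2 × β) F) *ᵥ x = x
    have ha' : (a : Matrix (Fin 2 × β) (Fin 2 × β) F) *ᵥ x = x := ha
    conv_lhs => rw [← ha']
    exact gl_inv_mulVec a x

/-- **The dichotomy**: `M` contains all transvections with pure singular vectors, or `M` consists of pure tensors. -/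
theorem dichotomy [Finite F] (hβ : 5 ≤ Fintype.card β) (hM : Grp f₁ B f M) :
    (∀ (c : F) (u : Fin 2 → F) (s' : β → F), Q s' = 0 →
      ∃ g' ∈ M, ∀ v, (g' : Matrix (Fin 2 × β) (Fin 2 × β) F) *ᵥ v =
        v + (c * f v (Cfsg.Agent.H872.ten u s')) • Cfsg.Agent.H872.ten u s') ∨
    (∀ g ∈ M, ∃ x : GL (Fin 2) F × GL β F, kr x = g) := by
  classical
  by_cases hnc : ∀ s, s ≠ 0 → Q s = 0 → NoC B M s
  · right
    -- the prime
    obtain ⟨p, hp⟩ := CharP.exists F
    have hpp : p.Prime := by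
      rcases CharP.char_is_prime_or_zero F p with h | h
      · exact h
      · exfalso
        subst h
        have := CharP.charP_to_charZero F
        exact not_finite F
    have : Fintype F := Fintype.ofFinite F
    have : Finite M := inferInstance
    set H : Subgroup (GL (Fin 2 × β) F) := (kr (α := Fin 2) (β := β) (F := F)).range ⊓ M with hH
    set D : Set (GL (Fin 2 × β) F) := {d | ∃ (s a : β → F) (h : GL β F), s ≠ 0 ∧ Q s = 0 ∧ B s a = 0 ∧ Q a ≠ 0 ∧
      Sieg Q B s a h ∧ (∀ x, Q ((h : Matrix β β F) *ᵥ x) = Q x) ∧ d = kr ((1 : GL (Fin 2) F), h)} with hD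
    have hDH : ∀ s ∈ D, s ∈ H ∧ ∃ k : ℕ, s ^ p ^ k = 1 := by
      rintro d ⟨s, a, h, hs, hQs, hsa, hQa, hh, hiso, rfl⟩
      refine ⟨⟨⟨_, rfl⟩, T.one_kr_mem hM (T.B_iso hiso)⟩, 1, ?_⟩
      have h1 : h ^ p = 1 := by
        apply Units.ext
        apply Matrix.ext_of_mulVec_single
        intro i
        rw [T.sieg_pow hQs hsa hh, CharP.cast_eq_zero F p, Units.val_one, Matrix.one_mulVec]
        simp
      rw [pow_one, ← map_pow, Prod.pow_mk, one_pow, h1]
      exact map_one kr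
    have hTI : ∀ s ∈ D, ∀ g ∈ M, g * s * g⁻¹ ∈ H → g ∈ H := by
      rintro d ⟨s, a, h, hs, hQs, hsa, hQa, hh, hiso, rfl⟩ g hg hgH
      exact ⟨T.ti hβ hM hs hQs (hnc s hs hQs) hsa hQa hh hg hgH.1, hg⟩
    have hfixD : ∀ v, ∃ d ∈ D, (d : Matrix (Fin 2 × β) (Fin 2 × β) F) *ᵥ v = v := by
      intro v
      obtain ⟨s, a, hs, hQs, hsa, hQa, h1, h2⟩ := T.exists_fix hβ v
      obtain ⟨h, hh, hiso⟩ := T.exists_sieg hQs hsa
      refine ⟨_, ⟨s, a, h, hs, hQs, hsa, hQa, hh, hiso, rfl⟩, ?_⟩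
      rw [T.kr_sieg hh, h1, h2, ten_zero_left, ten_zero_left, smul_zero, add_zero, sub_zero, sub_zero]
    intro g hg
    apply mem_range_kr_of_pres (by rw [Fintype.card_fin]; omega)
    intro u w
    obtain ⟨s, hsD, hs⟩ := hfixD ((g : Matrix (Fin 2 × β) (Fin 2 × β) F) *ᵥ Cfsg.Agent.H872.ten u w)
    obtain ⟨t, htD, ht⟩ := hfixD (Cfsg.Agent.H872.ten u w)
    obtain ⟨m, hm, h, hh, hgm⟩ := Cfsg.Agent.H880.ti_transfer_one hpp M H inf_le_right D hDH hTI
      (vstab ((g : Matrix (Fin 2 × β) (Fin 2 × β) F) *ᵥ Cfsg.Agent.H872.ten u w)) hsD htD hg hs (by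
        show ((g * t * g⁻¹ : GL (Fin 2 × β) F) : Matrix (Fin 2 × β) (Fin 2 × β) F) *ᵥ _ = _
        rw [gl_mul_mulVec, gl_mul_mulVec, gl_inv_mulVec, ht])
    obtain ⟨⟨⟨x₁, x₂⟩, rfl⟩, -⟩ := hh
    have hm' : (m : Matrix (Fin 2 × β) (Fin 2 × β) F) *ᵥ
        ((g : Matrix (Fin 2 × β) (Fin 2 × β) F) *ᵥ Cfsg.Agent.H872.ten u w) =
        (g : Matrix (Fin 2 × β) (Fin 2 × β) F) *ᵥ Cfsg.Agent.H872.ten u w := hm
    have h1 : (m : Matrix (Fin 2 × β) (Fin 2 × β) F) *ᵥ
        ((kr (x₁, x₂) : Matrix (Fin 2 × β) (Fin 2 × β) F) *ᵥ Cfsg.Agent.H872.ten u w) =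
        (g : Matrix (Fin 2 × β) (Fin 2 × β) F) *ᵥ Cfsg.Agent.H872.ten u w := by
      rw [← gl_mul_mulVec, ← hgm]
    rw [← hm'] at h1
    have h2 := congrArg (fun x => ((m⁻¹ : GL (Fin 2 × β) F) : Matrix (Fin 2 × β) (Fin 2 × β) F) *ᵥ x) h1
    simp only [gl_inv_mulVec] at h2
    rw [← h2, kr_mulVec_ten]
    exact ⟨_, _, rfl⟩
  · left
    push Not at hnc
    obtain ⟨s, hs, hQs, hn⟩ := hnc
    unfold NoC at hn
    push Not at hn
    obtain ⟨g, hg, hfix, hg1⟩ := hn
    exact fun c u s' hs' => T.transvections hβ hM hs hQs hg hg1 hfix c u s' hs'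

end Tens

end Cfsg.Agent.H924.Ten
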