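import Cfsg.Agent.H924.TenLevi

/-!
# `Sp_2(q) ⊗ O_n(q)` in `Sp_{2n}(q)`: the stabiliser of `P_s` (helper924)
-/

set_option autoImplicit false
set_option linter.unusedSectionVars false

open Cfsg Cfsg.Geo Matrix
open scoped Kronecker

namespace Cfsg.Agent.H924.Ten

open Cfsg.Agent.H929 (QF rB)
open Cfsg.Agent.H872

variable {β : Type} [Fintype β] [DecidableEq β] {F : Type*} [Field F]
variable {f₁ : (Fin 2 → F) → (Fin 2 → F) → F} {Q : (β → F) → F} {B : (β → F) → (β → F) → F}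
  {f : (Fin 2 × β → F) → (Fin 2 × β → F) → F}

theorem gl_inv_mulVec {ι : Type} [Fintype ι] [DecidableEq ι] (g : GL ι F) (v : ι → F) :
    ((g⁻¹ : GL ι F) : Matrix ι ι F) *ᵥ ((g : Matrix ι ι F) *ᵥ v) = v := by
  rw [Matrix.mulVec_mulVec, ← Units.val_mul, inv_mul_cancel, Units.val_one, Matrix.one_mulVec]

theorem gl_mulVec_inv {ι : Type} [Fintype ι] [DecidableEq ι] (g : GL ι F) (v : ι → F) :
    (g : Matrix ι ι F) *ᵥ (((g⁻¹ : GL ι F) : Matrix ι ι F) *ᵥ v) = v := by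
  rw [Matrix.mulVec_mulVec, ← Units.val_mul, mul_inv_cancel, Units.val_one, Matrix.one_mulVec]

theorem gl_mul_mulVec {ι : Type} [Fintype ι] [DecidableEq ι] (g h : GL ι F) (v : ι → F) :
    ((g * h : GL ι F) : Matrix ι ι F) *ᵥ v = (g : Matrix ι ι F) *ᵥ ((h : Matrix ι ι F) *ᵥ v) := by
  rw [Units.val_mul, Matrix.mulVec_mulVec]

/-- every element of `GL_2` is a similitude of the symplectic form -/
lemma exists_mult (T : IsSymplecticForm f₁) (a : GL (Fin 2) F) : ∃ μ : F, μ ≠ 0 ∧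
    ∀ u v, f₁ ((a : Matrix _ _ F) *ᵥ u) ((a : Matrix _ _ F) *ᵥ v) = μ * f₁ u v := by
  set e : Fin 2 → F := Pi.single 0 1
  set e' : Fin 2 → F := Pi.single 1 1
  have hexp : ∀ u : Fin 2 → F, u = u 0 • e + u 1 • e' := by
    intro u
    funext i
    fin_cases i <;> simp [e, e']
  have hco : ∀ u v, f₁ u v = (u 0 * v 1 - u 1 * v 0) * f₁ e e' := by
    intro u v
    conv_lhs => rw [hexp u, hexp v]
    simp only [T.bilinear.add_left, T.bilinear.add_right, T.bilinear.smul_left,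
      T.bilinear.smul_right, T.alternating, T.skew e' e]
    ring
  have key : ∀ u v, f₁ ((a : Matrix _ _ F) *ᵥ u) ((a : Matrix _ _ F) *ᵥ v) =
      ((a : Matrix (Fin 2) (Fin 2) F) 0 0 * (a : Matrix (Fin 2) (Fin 2) F) 1 1 -
        (a : Matrix (Fin 2) (Fin 2) F) 0 1 * (a : Matrix (Fin 2) (Fin 2) F) 1 0) * f₁ u v := by
    intro u v
    rw [hco, hco u v]
    simp only [Matrix.mulVec, dotProduct, Fin.sum_univ_two]
    ring
  refine ⟨_, ?_, key⟩
  intro h0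
  rw [h0] at key
  have he : e ≠ 0 := by
    intro h
    have := congrFun h 0
    simp [e] at this
  obtain ⟨x, hx⟩ := (T.nondegenerate e he).2
  have h1 := key (((a⁻¹ : GL (Fin 2) F) : Matrix _ _ F) *ᵥ e) (((a⁻¹ : GL (Fin 2) F) : Matrix _ _ F) *ᵥ x)
  rw [gl_mulVec_inv, gl_mulVec_inv, zero_mul] at h1
  exact hx h1

namespace Tens

variable (T : Tens f₁ Q B f) {M : Subgroup (GL (Fin 2 × β) F)} (hM : Grp f₁ B f M)

include T

lemma conj_sieg (hM : Grp f₁ B f M) {s : β → F} (hs : s ≠ 0) (hQs : Q s = 0) (hnc : NoC B M s)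
    {g : GL (Fin 2 × β) F} (hg : g ∈ M) {g₁ : GL (Fin 2) F}
    (hP : ∀ u, (g : Matrix (Fin 2 × β) (Fin 2 × β) F) *ᵥ (Cfsg.Agent.H872.ten u s) =
      Cfsg.Agent.H872.ten ((g₁ : Matrix _ _ F) *ᵥ u) s) {a' : β → F} (ha' : B s a' = 0) :
    ∃ a, B s a = 0 ∧ ∀ v, R B s v = 0 → R B a' ((g : Matrix (Fin 2 × β) (Fin 2 × β) F) *ᵥ v) =
      (g₁ : Matrix _ _ F) *ᵥ (R B a v) := by
  obtain ⟨h, hh, hiso'⟩ := T.exists_sieg hQs ha'
  set d := kr ((1 : GL (Fin 2) F), h) with hd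
  have hdM : d ∈ M := T.one_kr_mem hM (T.B_iso hiso')
  have hiso := hM.iso g hg
  have hginv : ∀ u, ((g⁻¹ : GL (Fin 2 × β) F) : Matrix (Fin 2 × β) (Fin 2 × β) F) *ᵥ
      (Cfsg.Agent.H872.ten u s) = Cfsg.Agent.H872.ten (((g₁⁻¹ : GL (Fin 2) F) : Matrix (Fin 2) (Fin 2) F) *ᵥ u) s := by
    intro u
    have h1 := hP (((g₁⁻¹ : GL (Fin 2) F) : Matrix (Fin 2) (Fin 2) F) *ᵥ u)
    rw [gl_mulVec_inv] at h1
    rw [← h1, gl_inv_mulVec]
  have hdact : ∀ v, R B s v = 0 → (d : Matrix (Fin 2 × β) (Fin 2 × β) F) *ᵥ v =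
      v - Cfsg.Agent.H872.ten (R B a' v) s := by
    intro v hv
    rw [T.kr_sieg hh, hv, ten_zero_left, ten_zero_left, smul_zero, add_zero, sub_zero]
  have hx1 : ∀ v, R B s v = 0 → ((g⁻¹ * d * g : GL (Fin 2 × β) F) : Matrix (Fin 2 × β) (Fin 2 × β) F) *ᵥ v =
      v - Cfsg.Agent.H872.ten (((g₁⁻¹ : GL (Fin 2) F) : Matrix (Fin 2) (Fin 2) F) *ᵥ
        (R B a' ((g : Matrix (Fin 2 × β) (Fin 2 × β) F) *ᵥ v))) s := by
    intro v hv
    rw [gl_mul_mulVec, gl_mul_mulVec, hdact _ (T.ten_fixed_perp hiso hP v hv), Matrix.mulVec_sub, gl_inv_mulVec,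
      hginv]
  obtain ⟨a, h', hsa, hh', hx⟩ := T.levi hM hs hQs hnc (g := g⁻¹ * d * g)
    (M.mul_mem (M.mul_mem (M.inv_mem hg) hdM) hg)
    (by
      intro u
      rw [hx1 _ (T.R_self hQs u), hP, T.R_ten, T.qf.comm a' s, ha', zero_smul, Matrix.mulVec_zero, ten_zero_left,
        sub_zero])
    (by
      intro v hv
      refine ⟨-(((g₁⁻¹ : GL (Fin 2) F) : Matrix (Fin 2) (Fin 2) F) *ᵥ
        (R B a' ((g : Matrix (Fin 2 × β) (Fin 2 × β) F) *ᵥ v))), ?_⟩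
      rw [hx1 v hv, ten_neg_left, sub_eq_add_neg])
  refine ⟨a, hsa, fun v hv => ?_⟩
  have h1 := hx1 v hv
  rw [← hx, T.kr_sieg hh', hv, ten_zero_left, ten_zero_left, smul_zero, add_zero, sub_zero] at h1
  have h2 := ten_left_injective hs (sub_right_injective h1)
  rw [h2, gl_mulVec_inv]

/-- **Lemma C**. -/
theorem stab (hM : Grp f₁ B f M) {s : β → F} (hs : s ≠ 0) (hQs : Q s = 0) (hnc : NoC B M s)
    {g : GL (Fin 2 × β) F} (hg : g ∈ M)
    (hP : ∀ u, ∃ u', (g : Matrix (Fin 2 × β) (Fin 2 × β) F) *ᵥ (Cfsg.Agent.H872.ten u s) =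
      Cfsg.Agent.H872.ten u' s) :
    ∃ x : GL (Fin 2) F × GL β F, kr x = g := by
  have hiso := hM.iso g hg
  obtain ⟨y, -, hQy, hsy⟩ := T.qf.exists_hyperbolic ⊤
    (fun x _ hx => by obtain ⟨y, hy⟩ := T.nd x hx; exact ⟨y, trivial, hy⟩) (a := s) trivial hs hQs
  have hys : B y s = 1 := by rw [T.qf.comm, hsy]
  have hss : B s s = 0 := by rw [T.qf.self, hQs, mul_zero]
  have hyy : B y y = 0 := by rw [T.qf.self, hQy, mul_zero]
  -- g₁
  let ts : (Fin 2 → F) →ₗ[F] (Fin 2 × β → F) :=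
    { toFun := fun u => Cfsg.Agent.H872.ten u s
      map_add' := fun u v => ten_add_left u v s
      map_smul' := fun c u => ten_smul_left c u s }
  have hP1 : ∀ u, (g : Matrix (Fin 2 × β) (Fin 2 × β) F) *ᵥ (Cfsg.Agent.H872.ten u s) =
      Cfsg.Agent.H872.ten (((R B y) ∘ₗ (Matrix.toLin' (g : Matrix (Fin 2 × β) (Fin 2 × β) F)) ∘ₗ ts) u) s := by
    intro u
    obtain ⟨u', hu'⟩ := hP u
    have : ((R B y) ∘ₗ (Matrix.toLin' (g : Matrix (Fin 2 × β) (Fin 2 × β) F)) ∘ₗ ts) u = u' := by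
      show R B y (Matrix.toLin' (g : Matrix (Fin 2 × β) (Fin 2 × β) F) (Cfsg.Agent.H872.ten u s)) = u'
      rw [Matrix.toLin'_apply, hu', T.R_ten, hys, one_smul]
    rw [this, hu']
  obtain ⟨g₁, hg₁⟩ := exists_gl_of_injective
    ((R B y) ∘ₗ (Matrix.toLin' (g : Matrix (Fin 2 × β) (Fin 2 × β) F)) ∘ₗ ts) (by
      intro u hu
      have h1 := hP1 u
      rw [hu, ten_zero_left] at h1
      rcases ten_eq_zero (gl_mulVec_eq_zero g h1) with h | h
      · exact h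
      · exact absurd h hs)
  have hP2 : ∀ u, (g : Matrix (Fin 2 × β) (Fin 2 × β) F) *ᵥ (Cfsg.Agent.H872.ten u s) =
      Cfsg.Agent.H872.ten ((g₁ : Matrix _ _ F) *ᵥ u) s := by
    intro u; rw [hP1, hg₁]
  obtain ⟨μ, hμ, hmult⟩ := exists_mult T.sym g₁
  -- Z
  set φ₀ : Fin 2 → F := Pi.single 0 1 with hφ₀
  set u₀ : Fin 2 → F := ((g₁⁻¹ : GL (Fin 2) F) : Matrix (Fin 2) (Fin 2) F) *ᵥ (Pi.single 0 1) with hu₀
  have hφu : φ₀ ⬝ᵥ ((g₁ : Matrix (Fin 2) (Fin 2) F) *ᵥ u₀) = 1 := by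
    rw [hu₀, gl_mulVec_inv]; simp [hφ₀]
  let t₀ : (β → F) →ₗ[F] (Fin 2 × β → F) :=
    { toFun := fun w => Cfsg.Agent.H872.ten u₀ w
      map_add' := fun u v => ten_add_right u₀ u v
      map_smul' := fun c u => ten_smul_right c u₀ u }
  let Z : (β → F) →ₗ[F] (β → F) := (lc φ₀) ∘ₗ (Matrix.toLin' (g : Matrix (Fin 2 × β) (Fin 2 × β) F)) ∘ₗ t₀
  have hZ : ∀ b, Z b = lc φ₀ ((g : Matrix (Fin 2 × β) (Fin 2 × β) F) *ᵥ Cfsg.Agent.H872.ten u₀ b) := by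
    intro b
    show lc φ₀ (Matrix.toLin' (g : Matrix (Fin 2 × β) (Fin 2 × β) F) (Cfsg.Agent.H872.ten u₀ b)) = _
    rw [Matrix.toLin'_apply]
  have hRZ : ∀ a', B s a' = 0 → ∀ b, B s b = 0 → ∀ u,
      R B a' ((g : Matrix (Fin 2 × β) (Fin 2 × β) F) *ᵥ Cfsg.Agent.H872.ten u b) =
        B a' (Z b) • ((g₁ : Matrix (Fin 2) (Fin 2) F) *ᵥ u) := by
    intro a' ha' b hb u
    obtain ⟨a, hsa, h1⟩ := T.conj_sieg hM hs hQs hnc hg hP2 ha'
    have hR0 : ∀ u, R B s (Cfsg.Agent.H872.ten u b) = 0 := by intro u; rw [T.R_ten, hb, zero_smul]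
    have h2 : B a' (Z b) = B a b := by
      rw [hZ, T.B_lc, h1 _ (hR0 _), T.R_ten, Matrix.mulVec_smul, dotProduct_smul, hφu, smul_eq_mul, mul_one]
    rw [h1 _ (hR0 _), T.R_ten, Matrix.mulVec_smul, h2]
  have hZs : Z s = s := by rw [hZ, hP2, lc_ten, hφu, one_smul]
  have hsZ : ∀ b, B s b = 0 → B s (Z b) = 0 := by
    intro b hb
    rw [hZ, T.B_lc, T.ten_fixed_perp hiso hP2 _ (by rw [T.R_ten, hb, zero_smul]), dotProduct_zero]
  have hgb : ∀ b, B s b = 0 → ∀ u, ∃ u', (g : Matrix (Fin 2 × β) (Fin 2 × β) F) *ᵥ Cfsg.Agent.H872.ten u b =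
      Cfsg.Agent.H872.ten ((g₁ : Matrix (Fin 2) (Fin 2) F) *ᵥ u) (Z b) + Cfsg.Agent.H872.ten u' s := by
    intro b hb u
    obtain ⟨u', hu'⟩ := T.exists_ten_of_R hs (z := (g : Matrix (Fin 2 × β) (Fin 2 × β) F) *ᵥ
      Cfsg.Agent.H872.ten u b - Cfsg.Agent.H872.ten ((g₁ : Matrix (Fin 2) (Fin 2) F) *ᵥ u) (Z b)) (by
        intro a' ha'
        rw [map_sub, hRZ a' ha' b hb u, T.R_ten, sub_self])
    exact ⟨u', by rw [← hu']; abel⟩
  have hBZ : ∀ b b', B s b = 0 → B s b' = 0 → B (Z b) (Z b') = μ⁻¹ * B b b' := by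
    intro b b' hb hb'
    obtain ⟨x, hx⟩ := (T.sym.nondegenerate (Pi.single 0 1) (by
      intro h; have := congrFun h 0; simp at this)).2
    obtain ⟨x₁, hx₁⟩ := hgb b hb (Pi.single 0 1)
    obtain ⟨x₂, hx₂⟩ := hgb b' hb' x
    have h1 := hiso (Cfsg.Agent.H872.ten (Pi.single 0 1) b) (Cfsg.Agent.H872.ten x b')
    rw [hx₁, hx₂, T.bil.add_left, T.bil.add_right, T.bil.add_right, T.ten, T.ten, T.ten, T.ten, T.ten, hmult, hss,
      hsZ b' hb', T.qf.comm (Z b) s, hsZ b hb] at h1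
    have h2 : f₁ (Pi.single 0 1) x * (μ * B (Z b) (Z b')) = f₁ (Pi.single 0 1) x * B b b' := by
      linear_combination h1
    have h3 := mul_left_cancel₀ hx h2
    rw [← h3, inv_mul_cancel_left₀ hμ]
  -- z̃
  let Bl : (β → F) → (β → F) →ₗ[F] F := fun w =>
    { toFun := fun x => B x w
      map_add' := fun x x' => T.qf.add_left x x' w
      map_smul' := fun c x => T.qf.smul_left c x w }
  let pr : (β → F) →ₗ[F] (β → F) := LinearMap.id - (Bl y).smulRight s - (Bl s).smulRight y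
  let Z' : (β → F) →ₗ[F] (β → F) := (Bl y).smulRight s + μ⁻¹ • (Bl s).smulRight y +
    (LinearMap.id - (Bl y).smulRight s) ∘ₗ Z ∘ₗ pr
  have hpr : ∀ x, pr x = x - B x y • s - B x s • y := fun x => rfl
  have hZ' : ∀ x, Z' x = B x y • s + μ⁻¹ • (B x s • y) + (Z (pr x) - B (Z (pr x)) y • s) := fun x => rfl
  have hprs : ∀ x, B s (pr x) = 0 := by
    intro x
    rw [hpr, T.qf.sub_right, T.qf.sub_right, T.qf.smul_right, T.qf.smul_right, hss, hsy, T.qf.comm s x]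
    ring
  have hB : ∀ x x', B (Z' x) (Z' x') = μ⁻¹ * B x x' := by
    intro x x'
    have e1 : B (Z (pr x)) (Z (pr x')) = μ⁻¹ * (B x x' - B x' y * B x s - B x' s * B x y) := by
      rw [hBZ _ _ (hprs x) (hprs x')]
      congr 1
      rw [hpr, hpr]
      simp only [T.qf.sub_left, T.qf.sub_right, T.qf.smul_left, T.qf.smul_right, hss, hyy, hsy, hys,
        T.qf.comm s x', T.qf.comm y x']
      ring
    rw [hZ', hZ']
    simp only [T.qf.add_left, T.qf.add_right, T.qf.sub_left, T.qf.sub_right, T.qf.smul_left, T.qf.smul_right, hss,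
      hyy, hsy, hys, e1, hsZ _ (hprs x), hsZ _ (hprs x'), T.qf.comm (Z (pr x)) s,
      T.qf.comm y (Z (pr x'))]
    ring
  obtain ⟨g₂, hg₂⟩ := exists_gl_of_injective Z' (by
    intro x hx
    by_contra hx0
    obtain ⟨x', hx'⟩ := T.nd x hx0
    apply hx'
    have h1 := hB x x'
    rw [hx, T.qf.zero_left] at h1
    rcases mul_eq_zero.mp h1.symm with h | h
    · exact absurd h (inv_ne_zero hμ)
    · exact h)
  have hg₂s : (g₂ : Matrix β β F) *ᵥ s = s := by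
    rw [hg₂, hZ']
    have : pr s = 0 := by
      rw [hpr, hsy, hss, one_smul, zero_smul, sub_self, sub_zero]
    rw [this, map_zero, hsy, hss, T.qf.zero_left, one_smul, zero_smul, smul_zero, zero_smul, sub_zero, add_zero,
      add_zero]
  have hg₂b : ∀ b, B s b = 0 → ∃ c : F, (g₂ : Matrix β β F) *ᵥ b = Z b + c • s := by
    intro b hb
    refine ⟨- B (Z (pr b)) y, ?_⟩
    have h1 : pr b = b - B b y • s := by rw [hpr, T.qf.comm b s, hb, zero_smul, sub_zero]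
    rw [hg₂, hZ', T.qf.comm b s, hb, zero_smul, smul_zero, add_zero, neg_smul]
    have h2 : Z (pr b) = Z b - B b y • s := by rw [h1, map_sub, map_smul, hZs]
    conv_lhs => rw [show Z (pr b) - B (Z (pr b)) y • s = Z b - B b y • s - B (Z (pr b)) y • s by
      conv_lhs => rw [h2]
      rw [h2]]
    abel
  set k := kr (g₁, g₂) with hk
  have hkM : k ∈ M := hM.mem g₁ g₂ μ hμ hmult (by
    intro x x'
    rw [hg₂, hg₂, hB])
  have hks : ∀ u, (k : Matrix (Fin 2 × β) (Fin 2 × β) F) *ᵥ (Cfsg.Agent.H872.ten u s) =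
      Cfsg.Agent.H872.ten ((g₁ : Matrix _ _ F) *ᵥ u) s := by
    intro u
    rw [hk, kr_mulVec_ten, hg₂s]
  have hkinv : ∀ u, ((k⁻¹ : GL (Fin 2 × β) F) : Matrix (Fin 2 × β) (Fin 2 × β) F) *ᵥ
      (Cfsg.Agent.H872.ten u s) = Cfsg.Agent.H872.ten (((g₁⁻¹ : GL (Fin 2) F) : Matrix (Fin 2) (Fin 2) F) *ᵥ u) s := by
    intro u
    have h1 := hks (((g₁⁻¹ : GL (Fin 2) F) : Matrix (Fin 2) (Fin 2) F) *ᵥ u)
    rw [gl_mulVec_inv] at h1
    rw [← h1, gl_inv_mulVec]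
  have hdiff : ∀ v, R B s v = 0 → ∃ u', (g : Matrix (Fin 2 × β) (Fin 2 × β) F) *ᵥ v =
      (k : Matrix (Fin 2 × β) (Fin 2 × β) F) *ᵥ v + Cfsg.Agent.H872.ten u' s := by
    intro v hv
    obtain ⟨u', hu'⟩ := T.exists_ten_of_R hs (z := (g : Matrix (Fin 2 × β) (Fin 2 × β) F) *ᵥ v -
      (k : Matrix (Fin 2 × β) (Fin 2 × β) F) *ᵥ v) (by
        intro a' ha'
        rw [map_sub, sub_eq_zero]
        have h1 : ((R B a') ∘ₗ Matrix.toLin' (g : Matrix (Fin 2 × β) (Fin 2 × β) F)) v =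
            ((R B a') ∘ₗ Matrix.toLin' (k : Matrix (Fin 2 × β) (Fin 2 × β) F)) v := by
          refine T.ext_perp (s := s) ?_ hv
          intro u b hb
          rw [LinearMap.comp_apply, LinearMap.comp_apply, Matrix.toLin'_apply, Matrix.toLin'_apply,
            hRZ a' ha' b hb u, hk, kr_mulVec_ten]
          obtain ⟨c, hc⟩ := hg₂b b hb
          show _ = R B a' (Cfsg.Agent.H872.ten ((g₁ : Matrix _ _ F) *ᵥ u) ((g₂ : Matrix β β F) *ᵥ b))
          rw [hc, T.R_ten, T.qf.add_right, T.qf.smul_right, T.qf.comm a' s, ha', mul_zero, add_zero]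
        rw [LinearMap.comp_apply, LinearMap.comp_apply, Matrix.toLin'_apply, Matrix.toLin'_apply] at h1
        exact h1)
    exact ⟨u', by rw [← hu']; abel⟩
  obtain ⟨a, h, -, -, hx⟩ := T.levi hM hs hQs hnc (g := k⁻¹ * g) (M.mul_mem (M.inv_mem hkM) hg)
    (by
      intro u
      rw [gl_mul_mulVec, hP2, hkinv, gl_inv_mulVec])
    (by
      intro v hv
      obtain ⟨u', hu'⟩ := hdiff v hv
      refine ⟨((g₁⁻¹ : GL (Fin 2) F) : Matrix (Fin 2) (Fin 2) F) *ᵥ u', ?_⟩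
      rw [gl_mul_mulVec, hu', Matrix.mulVec_add, gl_inv_mulVec, hkinv])
  refine ⟨(g₁, g₂) * ((1 : GL (Fin 2) F), h), ?_⟩
  rw [map_mul, hx, ← hk, mul_inv_cancel_left]

end Tens

end Cfsg.Agent.H924.Ten
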