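import Cfsg.Agent.H924.TenStab
import Cfsg.Agent.H880.TI

/-!
# `Sp_2(q) ⊗ O_n(q)` in `Sp_{2n}(q)`: the TI argument (helper924)
-/

set_option autoImplicit false
set_option linter.unusedSectionVars false

open Cfsg Cfsg.Geo Matrix
open scoped Kronecker

namespace Cfsg.Agent.H924.Ten

open Cfsg.Agent.H929 (QF rB)
open Cfsg.Agent.H872

variable {β : Type} [Fintype β] [DecidableEq β] {F : Type*} [Field F]
variable {f₁ : (Fin 2 → F) → (Fin 2 → F) → F} {Q : (β → F) → F} {B : (β → F) → (β → F) → F}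
  {f : (Fin 2 × β → F) → (Fin 2 × β → F) → F}

/-- two independent functionals on `F²` determine a tensor -/
lemma eq_zero_of_lc {φ ψ : Fin 2 → F} (h : φ 0 * ψ 1 - φ 1 * ψ 0 ≠ 0) {v : Fin 2 × β → F}
    (h1 : lc φ v = 0) (h2 : lc ψ v = 0) : v = 0 := by
  funext ⟨i, j⟩
  have e1 := congrFun h1 j
  have e2 := congrFun h2 j
  simp only [lc_apply, Fin.sum_univ_two, Pi.zero_apply] at e1 e2
  have a0 : (φ 0 * ψ 1 - φ 1 * ψ 0) * v (0, j) = 0 := by linear_combination ψ 1 * e1 - φ 1 * e2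
  have a1 : (φ 0 * ψ 1 - φ 1 * ψ 0) * v (1, j) = 0 := by linear_combination φ 0 * e2 - ψ 0 * e1
  fin_cases i
  · exact (mul_eq_zero.mp a0).resolve_left h
  · exact (mul_eq_zero.mp a1).resolve_left h

/-- a matrix for which every functional is an eigenvector is scalar -/
lemma scalar_of_det {Y : Matrix (Fin 2) (Fin 2) F}
    (h : ∀ φ : Fin 2 → F, φ 0 * (φ ᵥ* Y) 1 - φ 1 * (φ ᵥ* Y) 0 = 0) : ∃ c : F, ∀ u, Y *ᵥ u = c • u := by
  have h0 := h ![1, 0]
  have h1 := h ![0, 1]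
  have h2 := h ![1, 1]
  simp [Matrix.vecMul, dotProduct, Fin.sum_univ_two] at h0 h1 h2
  refine ⟨Y 0 0, fun u => ?_⟩
  funext i
  fin_cases i
  · simp only [Fin.zero_eta, Matrix.mulVec, dotProduct, Fin.sum_univ_two, Pi.smul_apply, smul_eq_mul]
    rw [h0]; ring
  · simp only [Fin.mk_one, Matrix.mulVec, dotProduct, Fin.sum_univ_two, Pi.smul_apply, smul_eq_mul]
    linear_combination u 0 * h1 + u 1 * (h2 - h0 + h1)

namespace Tens

variable (T : Tens f₁ Q B f) {M : Subgroup (GL (Fin 2 × β) F)} (hM : Grp f₁ B f M)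

include T

/-- `(d - 1)²` -/
lemma sieg_sq {s a : β → F} (hQs : Q s = 0) (hsa : B s a = 0) {h : GL β F} (hh : Sieg Q B s a h)
    (v : Fin 2 × β → F) :
    (kr ((1 : GL (Fin 2) F), h) : Matrix (Fin 2 × β) (Fin 2 × β) F) *ᵥ
      ((kr ((1 : GL (Fin 2) F), h) : Matrix (Fin 2 × β) (Fin 2 × β) F) *ᵥ v) =
      (2 : F) • ((kr ((1 : GL (Fin 2) F), h) : Matrix (Fin 2 × β) (Fin 2 × β) F) *ᵥ v) - v
        - (2 * Q a) • Cfsg.Agent.H872.ten (R B s v) s := by
  have hss : B s s = 0 := by rw [T.qf.self, hQs, mul_zero]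
  set d := kr ((1 : GL (Fin 2) F), h) with hd
  have hds : ∀ u, (d : Matrix (Fin 2 × β) (Fin 2 × β) F) *ᵥ (Cfsg.Agent.H872.ten u s) =
      Cfsg.Agent.H872.ten u s := by
    intro u
    rw [T.kr_sieg hh, T.R_ten, T.R_ten, hss, T.qf.comm a s, hsa, zero_smul, ten_zero_left, ten_zero_left, smul_zero,
      sub_zero, sub_zero, add_zero]
  have hda : ∀ u, (d : Matrix (Fin 2 × β) (Fin 2 × β) F) *ᵥ (Cfsg.Agent.H872.ten u a) =
      Cfsg.Agent.H872.ten u a - (2 * Q a) • Cfsg.Agent.H872.ten u s := by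
    intro u
    rw [T.kr_sieg hh, T.R_ten, T.R_ten, hsa, T.qf.self, zero_smul, ten_zero_left, ten_zero_left, smul_zero,
      sub_zero, add_zero, ten_smul_left]
  have h1 : (d : Matrix (Fin 2 × β) (Fin 2 × β) F) *ᵥ v = v + Cfsg.Agent.H872.ten (R B s v) a
      - Cfsg.Agent.H872.ten (R B a v) s - Q a • Cfsg.Agent.H872.ten (R B s v) s := T.kr_sieg hh v
  have h2 : (d : Matrix (Fin 2 × β) (Fin 2 × β) F) *ᵥ ((d : Matrix (Fin 2 × β) (Fin 2 × β) F) *ᵥ v) =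
      (d : Matrix (Fin 2 × β) (Fin 2 × β) F) *ᵥ v + (Cfsg.Agent.H872.ten (R B s v) a
        - (2 * Q a) • Cfsg.Agent.H872.ten (R B s v) s)
      - Cfsg.Agent.H872.ten (R B a v) s - Q a • Cfsg.Agent.H872.ten (R B s v) s := by
    conv_lhs => rw [h1, Matrix.mulVec_sub, Matrix.mulVec_sub, Matrix.mulVec_add, hda, hds, Matrix.mulVec_smul, hds]
  rw [h2, h1, two_smul]
  abel

/-- powers of a Siegel transformation -/
lemma sieg_pow {s a : β → F} (hQs : Q s = 0) (hsa : B s a = 0) {h : GL β F} (hh : Sieg Q B s a h) (n : ℕ)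
    (x : β → F) :
    ((h ^ n : GL β F) : Matrix β β F) *ᵥ x = x + ((n : F) * B x s) • a - ((n : F) * B x a) • s
      - ((n : F) ^ 2 * (Q a * B x s)) • s := by
  have hss : B s s = 0 := by rw [T.qf.self, hQs, mul_zero]
  have hhs : (h : Matrix β β F) *ᵥ s = s := by
    rw [hh, hss, hsa, mul_zero, zero_smul, zero_smul, add_zero, sub_zero, sub_zero]
  have hha : (h : Matrix β β F) *ᵥ a = a - (2 * Q a) • s := by
    rw [hh, T.qf.comm a s, hsa, T.qf.self, mul_zero, zero_smul, zero_smul, add_zero, sub_zero]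
  induction n with
  | zero => simp
  | succ n ih =>
    rw [pow_succ', gl_mul_mulVec, ih, Matrix.mulVec_sub, Matrix.mulVec_sub, Matrix.mulVec_add, Matrix.mulVec_smul,
      Matrix.mulVec_smul, Matrix.mulVec_smul, hhs, hha, hh x]
    funext i
    simp only [Pi.add_apply, Pi.sub_apply, Pi.smul_apply, smul_eq_mul]
    push_cast
    ring

/-- **Lemma D** (the TI property). -/
theorem ti [Finite F] (hβ : 5 ≤ Fintype.card β) (hM : Grp f₁ B f M) {s a : β → F} (hs : s ≠ 0) (hQs : Q s = 0)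
    (hnc : NoC B M s) (hsa : B s a = 0) (hQa : Q a ≠ 0) {h : GL β F} (hh : Sieg Q B s a h)
    {g : GL (Fin 2 × β) F} (hg : g ∈ M)
    (hx : ∃ x : GL (Fin 2) F × GL β F, kr x = g * kr ((1 : GL (Fin 2) F), h) * g⁻¹) :
    ∃ x : GL (Fin 2) F × GL β F, kr x = g := by
  obtain ⟨⟨y₁, y₂⟩, hy⟩ := hx
  set d := kr ((1 : GL (Fin 2) F), h) with hd
  have hiso := hM.iso g hg
  -- d' (g v) = g (d v)
  have hconj : ∀ v, (kr (y₁, y₂) : Matrix (Fin 2 × β) (Fin 2 × β) F) *ᵥ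
      ((g : Matrix (Fin 2 × β) (Fin 2 × β) F) *ᵥ v) = (g : Matrix (Fin 2 × β) (Fin 2 × β) F) *ᵥ
      ((d : Matrix (Fin 2 × β) (Fin 2 × β) F) *ᵥ v) := by
    intro v
    rw [hy, gl_mul_mulVec, gl_mul_mulVec, gl_inv_mulVec]
  -- y₁ is scalar
  have hsc : ∃ c : F, ∀ u, (y₁ : Matrix (Fin 2) (Fin 2) F) *ᵥ u = c • u := by
    apply scalar_of_det
    by_contra hcon
    push Not at hcon
    obtain ⟨φ, hφ⟩ := hcon
    let L : (Fin 2 × β → F) →ₗ[F] ((Fin 2 → F) × (Fin 2 → F)) × (β → F) :=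
      ((R B s).prod (R B a)).prod ((lc φ) ∘ₗ (Matrix.toLin' (g : Matrix (Fin 2 × β) (Fin 2 × β) F)))
    have hL : Function.Injective L := by
      rw [← LinearMap.ker_eq_bot, LinearMap.ker_eq_bot']
      intro v hv
      have h0 : ((R B s v, R B a v), lc φ (Matrix.toLin' (g : Matrix (Fin 2 × β) (Fin 2 × β) F) v)) = 0 := hv
      rw [Prod.mk_eq_zero, Prod.mk_eq_zero, Matrix.toLin'_apply] at h0
      obtain ⟨⟨h1, h2⟩, h3⟩ := h0
      have h4 : (d : Matrix (Fin 2 × β) (Fin 2 × β) F) *ᵥ v = v := by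
        rw [T.kr_sieg hh, h1, h2, ten_zero_left, ten_zero_left, smul_zero, add_zero, sub_zero, sub_zero]
      have h5 := hconj v
      rw [h4] at h5
      have h6 : lc (φ ᵥ* (y₁ : Matrix (Fin 2) (Fin 2) F)) ((g : Matrix (Fin 2 × β) (Fin 2 × β) F) *ᵥ v) = 0 := by
        have h7 := congrArg (lc φ) h5
        rw [coe_kr, lc_kron, h3] at h7
        exact gl_mulVec_eq_zero y₂ h7
      exact gl_mulVec_eq_zero g (eq_zero_of_lc hφ h3 h6)
    have hdim := LinearMap.finrank_le_finrank_of_injective hL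
    simp only [Module.finrank_prod, Module.finrank_fintype_fun_eq_card, Fintype.card_prod, Fintype.card_fin] at hdim
    omega
  obtain ⟨c, hc⟩ := hsc
  -- the square of d' - 1
  set d' := kr (y₁, y₂) with hd'
  have hd'ten : ∀ u w, (d' : Matrix (Fin 2 × β) (Fin 2 × β) F) *ᵥ Cfsg.Agent.H872.ten u w =
      Cfsg.Agent.H872.ten u (c • ((y₂ : Matrix β β F) *ᵥ w)) := by
    intro u w
    rw [hd', kr_mulVec_ten, hc, ten_smul_left, ten_smul_right]
  -- Y w = (c y₂ - 1)² w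
  let Y : (β → F) → (β → F) := fun w => c • ((y₂ : Matrix β β F) *ᵥ (c • ((y₂ : Matrix β β F) *ᵥ w)))
    - (2 : F) • (c • ((y₂ : Matrix β β F) *ᵥ w)) + w
  have hYten : ∀ u w, (d' : Matrix (Fin 2 × β) (Fin 2 × β) F) *ᵥ ((d' : Matrix (Fin 2 × β) (Fin 2 × β) F) *ᵥ
      Cfsg.Agent.H872.ten u w) - (2 : F) • ((d' : Matrix (Fin 2 × β) (Fin 2 × β) F) *ᵥ Cfsg.Agent.H872.ten u w) +
      Cfsg.Agent.H872.ten u w = Cfsg.Agent.H872.ten u (Y w) := by
    intro u w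
    rw [hd'ten, hd'ten]
    funext p
    simp only [Y, ten_apply, Pi.add_apply, Pi.sub_apply, Pi.smul_apply, smul_eq_mul, nsmul_eq_mul]
    ring
  have hsq : ∀ v, (d' : Matrix (Fin 2 × β) (Fin 2 × β) F) *ᵥ ((d' : Matrix (Fin 2 × β) (Fin 2 × β) F) *ᵥ
      ((g : Matrix (Fin 2 × β) (Fin 2 × β) F) *ᵥ v)) -
      (2 : F) • ((d' : Matrix (Fin 2 × β) (Fin 2 × β) F) *ᵥ ((g : Matrix (Fin 2 × β) (Fin 2 × β) F) *ᵥ v)) +
      (g : Matrix (Fin 2 × β) (Fin 2 × β) F) *ᵥ v =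
      (g : Matrix (Fin 2 × β) (Fin 2 × β) F) *ᵥ (Cfsg.Agent.H872.ten (-(2 * Q a) • R B s v) s) := by
    intro v
    rw [hconj, hconj, T.sieg_sq hQs hsa hh, ← hd, Matrix.mulVec_sub, Matrix.mulVec_sub, Matrix.mulVec_smul, neg_smul,
      ten_neg_left, ten_smul_left, Matrix.mulVec_neg, Matrix.mulVec_smul]
    abel
  -- Y ≠ 0
  obtain ⟨w₀, hw₀⟩ : ∃ w, Y w ≠ 0 := by
    by_contra hcon
    push Not at hcon
    obtain ⟨y, hy1⟩ := T.nd s hs
    have h1 : ∀ v, (d' : Matrix (Fin 2 × β) (Fin 2 × β) F) *ᵥ ((d' : Matrix (Fin 2 × β) (Fin 2 × β) F) *ᵥ v) -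
        (2 : F) • ((d' : Matrix (Fin 2 × β) (Fin 2 × β) F) *ᵥ v) + v = 0 := by
      intro v
      have h2 : ((Matrix.toLin' (d' : Matrix (Fin 2 × β) (Fin 2 × β) F)) ∘ₗ
          (Matrix.toLin' (d' : Matrix (Fin 2 × β) (Fin 2 × β) F)) -
          (2 : F) • (Matrix.toLin' (d' : Matrix (Fin 2 × β) (Fin 2 × β) F)) + LinearMap.id) =
          (0 : (Fin 2 × β → F) →ₗ[F] (Fin 2 × β → F)) := by
        apply linearMap_ext_ten
        intro u w
        have h3 := hYten u w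
        rw [hcon w, ten_zero_right] at h3
        rw [LinearMap.zero_apply, ← h3, LinearMap.add_apply, LinearMap.sub_apply, LinearMap.smul_apply,
          LinearMap.comp_apply, Matrix.toLin'_apply, Matrix.toLin'_apply, LinearMap.id_apply, two_smul]
      have h4 := congrArg (fun X : (Fin 2 × β → F) →ₗ[F] (Fin 2 × β → F) => X v) h2
      simp only [LinearMap.add_apply, LinearMap.sub_apply, LinearMap.smul_apply, LinearMap.comp_apply,
        Matrix.toLin'_apply, LinearMap.id_apply, LinearMap.zero_apply] at h4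
      rw [two_smul] at h4
      rw [two_smul]
      exact h4
    have h5 := hsq (Cfsg.Agent.H872.ten (Pi.single 0 1) y)
    rw [h1] at h5
    have h6 := gl_mulVec_eq_zero g h5.symm
    rcases ten_eq_zero h6 with h7 | h7
    · rw [T.R_ten] at h7
      have h8 := congrFun h7 0
      simp only [Pi.smul_apply, Pi.single_eq_same, smul_eq_mul, mul_one, Pi.zero_apply] at h8
      exact (mul_ne_zero (neg_ne_zero.mpr (mul_ne_zero T.two hQa)) hy1) h8
    · exact hs h7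
  set s' := Y w₀ with hs'
  have hs'in : ∀ u, ∃ u', Cfsg.Agent.H872.ten u s' =
      (g : Matrix (Fin 2 × β) (Fin 2 × β) F) *ᵥ (Cfsg.Agent.H872.ten u' s) := by
    intro u
    rw [hs', ← hYten]
    have h1 : Cfsg.Agent.H872.ten u w₀ = (g : Matrix (Fin 2 × β) (Fin 2 × β) F) *ᵥ
        (((g⁻¹ : GL (Fin 2 × β) F) : Matrix (Fin 2 × β) (Fin 2 × β) F) *ᵥ Cfsg.Agent.H872.ten u w₀) := by
      rw [gl_mulVec_inv]
    rw [h1, hsq]
    exact ⟨_, rfl⟩
  have hss : B s s = 0 := by rw [T.qf.self, hQs, mul_zero]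
  have hQs' : Q s' = 0 := by
    obtain ⟨x, hx⟩ := (T.sym.nondegenerate (Pi.single 0 1) (by
      intro h; have := congrFun h 0; simp at this)).2
    obtain ⟨u₁, hu₁⟩ := hs'in (Pi.single 0 1)
    obtain ⟨u₂, hu₂⟩ := hs'in x
    have h1 : f (Cfsg.Agent.H872.ten (Pi.single 0 1) s') (Cfsg.Agent.H872.ten x s') = 0 := by
      rw [hu₁, hu₂, hiso, T.ten, hss, mul_zero]
    rw [T.ten, T.qf.self] at h1
    rcases mul_eq_zero.mp h1 with h2 | h2
    · exact absurd h2 hx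
    · exact (mul_eq_zero.mp h2).resolve_left T.two
  obtain ⟨b, hb, hbs⟩ := T.exists_map_sing hβ hs hw₀ (by rw [hQs, hQs'])
  have hk := T.one_kr_mem hM (T.B_iso hb)
  obtain ⟨x, hx⟩ := T.stab hM hs hQs hnc (g := g⁻¹ * kr ((1 : GL (Fin 2) F), b)) (M.mul_mem (M.inv_mem hg) hk) (by
    intro u
    obtain ⟨u', hu'⟩ := hs'in u
    refine ⟨u', ?_⟩
    rw [gl_mul_mulVec, kr_mulVec_ten, Units.val_one, Matrix.one_mulVec]
    show ((g⁻¹ : GL (Fin 2 × β) F) : Matrix (Fin 2 × β) (Fin 2 × β) F) *ᵥ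
      Cfsg.Agent.H872.ten u ((b : Matrix β β F) *ᵥ s) = _
    rw [hbs, hu', gl_inv_mulVec])
  refine ⟨((1 : GL (Fin 2) F), b) * x⁻¹, ?_⟩
  rw [map_mul, map_inv, hx]
  group

end Tens

end Cfsg.Agent.H924.Ten
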