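import Cfsg.Agent.H924.TenCenter
import Cfsg.Agent.H925.OrthBasic

/-!
# `Sp_2(q) ⊗ O_n(q)` in `Sp_{2n}(q)`: central elements give transvections (helper924)
-/

set_option autoImplicit false
set_option linter.unusedSectionVars false

open Cfsg Cfsg.Geo Matrix
open scoped Kronecker

namespace Cfsg.Agent.H924.Ten

open Cfsg.Agent.H929 (QF rB)
open Cfsg.Agent.H872

variable {β : Type} [Fintype β] [DecidableEq β] {F : Type*} [Field F]
variable {f₁ : (Fin 2 → F) → (Fin 2 → F) → F} {Q : (β → F) → F} {B : (β → F) → (β → F) → F}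
  {f : (Fin 2 × β → F) → (Fin 2 × β → F) → F}

namespace Tens

variable (T : Tens f₁ Q B f) {M : Subgroup (GL (Fin 2 × β) F)} (hM : Grp f₁ B f M)

include T

lemma B_eq (x y : β → F) : B x y = QuadraticMap.polar Q x y := by
  unfold QuadraticMap.polar
  rw [T.qf.add]; ring

lemma hQ : IsNondegenerateQuadraticForm Q where
  smul := T.qf.smul
  polar_bilinear :=
    { add_left := fun x y v => by rw [← T.B_eq, ← T.B_eq, ← T.B_eq]; exact T.qf.add_left x y v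
      smul_left := fun c x v => by rw [← T.B_eq, ← T.B_eq]; exact T.qf.smul_left c x v
      add_right := fun v x y => by rw [← T.B_eq, ← T.B_eq, ← T.B_eq]; exact T.qf.add_right v x y
      smul_right := fun c v x => by rw [← T.B_eq, ← T.B_eq]; exact T.qf.smul_right c v x }
  nondegenerate := fun v hv => by
    obtain ⟨y, hy⟩ := T.nd v hv
    exact ⟨⟨y, by rw [← T.B_eq, T.qf.comm]; exact hy⟩, ⟨y, by rw [← T.B_eq]; exact hy⟩⟩

/-- isometries of `Q` preserve `B` -/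
lemma B_iso {b : GL β F} (hb : ∀ x, Q ((b : Matrix β β F) *ᵥ x) = Q x) (x y : β → F) :
    B ((b : Matrix β β F) *ᵥ x) ((b : Matrix β β F) *ᵥ y) = B x y := by
  rw [T.B_eq, T.B_eq, QuadraticMap.polar, QuadraticMap.polar, ← Matrix.mulVec_add, hb, hb, hb]

/-- the orthogonal group is transitive on vectors of given norm -/
lemma exists_map_sing [Finite F] (hβ : 5 ≤ Fintype.card β) {s s' : β → F} (hs : s ≠ 0) (hs' : s' ≠ 0)
    (h : Q s = Q s') : ∃ b : GL β F, (∀ x, Q ((b : Matrix β β F) *ᵥ x) = Q x) ∧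
      (b : Matrix β β F) *ᵥ s = s' := by
  obtain ⟨b, hb, hbs⟩ := Cfsg.Agent.H925.exists_trans T.hQ hβ hs hs' h
  exact ⟨b, Cfsg.Agent.H925.mem_iso_iff.mp (Cfsg.Agent.H925.omegaGL_le_iso Q hb), hbs⟩

lemma exists_skew_ne {ξ : (Fin 2 → F) →ₗ[F] (Fin 2 → F)} (hξ : ∀ u u', f₁ (ξ u) u' = - f₁ u (ξ u'))
    (h0 : ξ ≠ 0) : ∃ e, f₁ (ξ e) e ≠ 0 := by
  by_contra hcon
  push Not at hcon
  apply h0
  apply LinearMap.ext
  intro e
  rw [LinearMap.zero_apply]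
  apply T.eq_zero_of_f₁
  intro e'
  have h1 := hcon (e + e')
  rw [map_add, T.sym.bilinear.add_left, T.sym.bilinear.add_right, T.sym.bilinear.add_right, hcon e, hcon e',
    hξ e' e, T.sym.skew e' (ξ e)] at h1
  have h2 : (2 : F) * f₁ (ξ e) e' = 0 := by linear_combination h1
  exact (mul_eq_zero.mp h2).resolve_left T.two

/-- a nontrivial central element gives the transvections of the group `R_s` -/
lemma zel_tl [Finite F] (hM : Grp f₁ B f M) {s : β → F} (hQs : Q s = 0)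
    {g : GL (Fin 2 × β) F} (hg : g ∈ M) {ξ : (Fin 2 → F) →ₗ[F] (Fin 2 → F)}
    (hξ : ∀ u u', f₁ (ξ u) u' = - f₁ u (ξ u')) (h0 : ξ ≠ 0) (hz : Zel B s ξ g) (c : F) (e : Fin 2 → F) :
    ∃ g' ∈ M, Zel B s (tl T.sym c e) g' := by
  -- closure properties
  have hadd : ∀ ξ ξ' : (Fin 2 → F) →ₗ[F] (Fin 2 → F), (∃ g' ∈ M, Zel B s ξ g') → (∃ g' ∈ M, Zel B s ξ' g') →
      ∃ g' ∈ M, Zel B s (ξ + ξ') g' := by
    rintro ξ ξ' ⟨g, hg, h⟩ ⟨g', hg', h'⟩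
    exact ⟨g * g', M.mul_mem hg hg', T.zel_mul hQs h h'⟩
  have hneg : ∀ ξ : (Fin 2 → F) →ₗ[F] (Fin 2 → F), (∃ g' ∈ M, Zel B s ξ g') → ∃ g' ∈ M, Zel B s (-ξ) g' := by
    rintro ξ ⟨g, hg, h⟩
    exact ⟨g⁻¹, M.inv_mem hg, T.zel_inv hQs h⟩
  have hconj : ∀ (ξ ξ' : (Fin 2 → F) →ₗ[F] (Fin 2 → F)) (a : GL (Fin 2) F),
      (∀ u v, f₁ ((a : Matrix _ _ F) *ᵥ u) ((a : Matrix _ _ F) *ᵥ v) = f₁ u v) →
      (∀ u, ξ' ((a : Matrix _ _ F) *ᵥ u) = (a : Matrix _ _ F) *ᵥ (ξ u)) →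
      (∃ g' ∈ M, Zel B s ξ g') → ∃ g' ∈ M, Zel B s ξ' g' := by
    rintro ξ ξ' a ha hξξ ⟨g, hg, h⟩
    exact ⟨_, M.mul_mem (M.mul_mem (T.kr_one_mem hM ha) hg) (M.inv_mem (T.kr_one_mem hM ha)), T.zel_conj h a hξξ⟩
  obtain ⟨e₀, he₀⟩ := T.exists_skew_ne hξ h0
  have he₀0 : e₀ ≠ 0 := by
    rintro rfl
    apply he₀
    have := T.sym.bilinear.smul_right 0 (ξ 0) 0
    simpa using this
  -- the element `a ξ a⁻¹` for a transvection
  have h1 : ∀ t : F, t ^ 2 = 1 → ∃ g' ∈ M, Zel B s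
      (ξ - t • ((ξ ∘ₗ (tl T.sym 1 e₀)) - (tl T.sym 1 e₀) ∘ₗ ξ) - (tl T.sym (f₁ (ξ e₀) e₀) e₀)) g' := by
    intro t ht
    obtain ⟨a, ha, hiso⟩ := exists_tU T.sym t e₀
    refine hconj ξ _ a hiso ?_ ⟨g, hg, hz⟩
    intro u
    rw [ha, ha]
    simp only [LinearMap.sub_apply, LinearMap.smul_apply, LinearMap.comp_apply, tl_apply, map_add, map_smul,
      T.sym.bilinear.add_left, T.sym.bilinear.smul_left, T.sym.alternating e₀, mul_zero, add_zero, one_mul]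
    simp only [smul_sub, sub_smul, smul_smul, smul_add, add_smul]
    have e1 : t * f₁ u e₀ * (t * f₁ (ξ e₀) e₀) = f₁ (ξ e₀) e₀ * f₁ u e₀ := by
      linear_combination f₁ u e₀ * f₁ (ξ e₀) e₀ * ht
    rw [e1]
    simp only [mul_zero, zero_smul]
    abel
  obtain ⟨g1, hg1, hz1⟩ := h1 1 (by ring)
  obtain ⟨g2, hg2, hz2⟩ := h1 (-1) (by ring)
  have h3 : ∃ g' ∈ M, Zel B s (tl T.sym (-2 * f₁ (ξ e₀) e₀) e₀) g' := by
    have h4 := hadd _ _ (hadd _ _ ⟨g1, hg1, hz1⟩ ⟨g2, hg2, hz2⟩) (hadd _ _ (hneg _ ⟨g, hg, hz⟩) (hneg _ ⟨g, hg, hz⟩))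
    convert h4 using 3
    rename_i g'
    congr 1
    rw [show (-2 * f₁ (ξ e₀) e₀) = -f₁ (ξ e₀) e₀ + -f₁ (ξ e₀) e₀ by ring, ← tl_add]
    have h5 : tl T.sym (-f₁ (ξ e₀) e₀) e₀ = - tl T.sym (f₁ (ξ e₀) e₀) e₀ := by
      apply LinearMap.ext
      intro u
      rw [LinearMap.neg_apply, tl_apply, tl_apply, neg_mul, neg_smul]
    have h6 : ∀ X : (Fin 2 → F) →ₗ[F] (Fin 2 → F), (-1 : F) • X = -X := fun X => by
      apply LinearMap.ext
      intro u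
      rw [LinearMap.smul_apply, LinearMap.neg_apply, neg_smul, one_smul]
    rw [h5, one_smul, h6]
    congr! 1
    abel
  set c₀ := -2 * f₁ (ξ e₀) e₀ with hc₀
  have hc₀0 : c₀ ≠ 0 := mul_ne_zero (neg_ne_zero.mpr T.two) he₀
  have h6 : ∀ e' : Fin 2 → F, ∃ g' ∈ M, Zel B s (tl T.sym c₀ e') g' := by
    intro e'
    by_cases he' : e' = 0
    · refine ⟨1, M.one_mem, ?_⟩
      intro v
      rw [tl_apply, he', smul_zero, ten_zero_left, add_zero, Units.val_one, Matrix.one_mulVec]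
    · obtain ⟨a, ha, hiso⟩ := exists_map T.sym he₀0 he'
      refine hconj _ _ a hiso ?_ h3
      intro u
      rw [tl_apply, tl_apply, ← ha, hiso, Matrix.mulVec_smul]
  obtain ⟨x, y, hxy⟩ := exists_sq_add_sq T.two (c / c₀)
  have h7 := hadd _ _ (h6 (x • e)) (h6 (y • e))
  rw [tl_smul_vec, tl_smul_vec, tl_add, ← add_mul, hxy, div_mul_cancel₀ _ hc₀0] at h7
  exact h7

/-- **Lemma A**: a nontrivial element of `M` fixing `P_s^⊥` pointwise gives all transvections. -/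
theorem transvections [Finite F] (hβ : 5 ≤ Fintype.card β) (hM : Grp f₁ B f M) {s : β → F} (hs : s ≠ 0)
    (hQs : Q s = 0) {g : GL (Fin 2 × β) F} (hg : g ∈ M) (hg1 : g ≠ 1)
    (hfix : ∀ v, R B s v = 0 → (g : Matrix (Fin 2 × β) (Fin 2 × β) F) *ᵥ v = v)
    (c : F) (u : Fin 2 → F) (s' : β → F) (hs' : Q s' = 0) :
    ∃ g' ∈ M, ∀ v, (g' : Matrix (Fin 2 × β) (Fin 2 × β) F) *ᵥ v =
      v + (c * f v (Cfsg.Agent.H872.ten u s')) • Cfsg.Agent.H872.ten u s' := by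
  by_cases hs'0 : s' = 0
  · refine ⟨1, M.one_mem, fun v => ?_⟩
    rw [hs'0, ten_zero_right, smul_zero, add_zero, Units.val_one, Matrix.one_mulVec]
  obtain ⟨ξ, hξ, hz⟩ := T.exists_zel hs hQs (hM.iso g hg) hfix
  have hξ0 : ξ ≠ 0 := by
    rintro rfl
    apply hg1
    apply gl_ext_ten
    intro u w
    rw [hz, LinearMap.zero_apply, ten_zero_left, add_zero, Units.val_one, Matrix.one_mulVec]
  obtain ⟨g₁, hg₁, hz₁⟩ := T.zel_tl hM hQs hg hξ hξ0 hz c u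
  obtain ⟨b, hb, hbs⟩ := T.exists_map_sing hβ hs hs'0 (by rw [hQs, hs'])
  have hk := T.one_kr_mem hM (T.B_iso hb)
  set k := kr ((1 : GL (Fin 2) F), b) with hkdef
  refine ⟨k * g₁ * k⁻¹, M.mul_mem (M.mul_mem hk hg₁) (M.inv_mem hk), ?_⟩
  intro v
  set w := ((k⁻¹ : GL (Fin 2 × β) F) : Matrix (Fin 2 × β) (Fin 2 × β) F) *ᵥ v with hw
  have hv : v = (k : Matrix (Fin 2 × β) (Fin 2 × β) F) *ᵥ w := by
    rw [hw, Matrix.mulVec_mulVec, ← Units.val_mul, mul_inv_cancel, Units.val_one, Matrix.one_mulVec]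
  have hkt : (k : Matrix (Fin 2 × β) (Fin 2 × β) F) *ᵥ Cfsg.Agent.H872.ten u s = Cfsg.Agent.H872.ten u s' := by
    rw [hkdef, kr_mulVec_ten, hbs, Units.val_one, Matrix.one_mulVec]
  rw [Units.val_mul, Units.val_mul, ← Matrix.mulVec_mulVec, ← Matrix.mulVec_mulVec, ← hw, hz₁ w, Matrix.mulVec_add,
    ← hv, tl_apply, ten_smul_left, Matrix.mulVec_smul, hkt, ← T.form_R]
  have h8 : f w (Cfsg.Agent.H872.ten u s) = f v (Cfsg.Agent.H872.ten u s') := by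
    rw [hv, ← hkt, hM.iso k hk]
  rw [h8]

end Tens

end Cfsg.Agent.H924.Ten
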