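import Cfsg.Agent.H924.TenMain
import Cfsg.Agent.H883.Tensor
import Cfsg.Agent.H924.SympForm
import Cfsg.Agent.H924.Reduc
import Cfsg.Agent.H875.SpMcL
import Cfsg.Agent.H931.SpProper

/-!
# `Sp_2(q) ⊗ O_n(q)` is maximal in `Sp_{2n}(q)` for `q` odd, `n ≥ 5` (helper924)
-/

set_option autoImplicit false
set_option linter.unusedSectionVars false

open Cfsg Cfsg.Geo Matrix
open scoped Kronecker

namespace Cfsg.Agent.H924.Ten

open Cfsg.Agent.H929 (QF rB)
open Cfsg.Agent.H872

/-- intermediate vectors in `F²` -/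
lemma exists_mid {F : Type*} [Field F] {f₁ : (Fin 2 → F) → (Fin 2 → F) → F} (T : IsSymplecticForm f₁)
    {e e' : Fin 2 → F} (he : e ≠ 0) (he' : e' ≠ 0) : ∃ z, f₁ e z ≠ 0 ∧ f₁ z e' ≠ 0 := by
  obtain ⟨x, hx⟩ := (T.nondegenerate e he).2
  obtain ⟨y, hy⟩ := (T.nondegenerate e' he').1
  by_cases h1 : f₁ x e' = 0
  · by_cases h2 : f₁ e y = 0
    · refine ⟨x + y, ?_, ?_⟩
      · rw [T.bilinear.add_right, h2, add_zero]; exact hx
      · rw [T.bilinear.add_left, h1, zero_add]; exact hy
    · exact ⟨y, h2, hy⟩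
  · exact ⟨x, hx, h1⟩

section Conn

variable {β : Type} [Fintype β] [DecidableEq β] {F : Type*} [Field F]
variable {f₁ : (Fin 2 → F) → (Fin 2 → F) → F} {Q : (β → F) → F} {B : (β → F) → (β → F) → F}
  {f : (Fin 2 × β → F) → (Fin 2 × β → F) → F}

/-- connectedness of the graph of singular pure tensors -/
theorem Tens.conn [Finite F] (T : Tens f₁ Q B f) (hβ : 3 ≤ Fintype.card β)
    (Pr : (Fin 2 → F) → (β → F) → Prop)
    (hPr : ∀ u s u' t, Q s = 0 → Q t = 0 → Pr u s → f₁ u u' ≠ 0 → B s t ≠ 0 → Pr u' t)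
    {u : Fin 2 → F} {s : β → F} (hu : u ≠ 0) (hs : s ≠ 0) (hQs : Q s = 0) (h : Pr u s)
    {u' : Fin 2 → F} {s' : β → F} (hu' : u' ≠ 0) (hs' : s' ≠ 0) (hQs' : Q s' = 0) : Pr u' s' := by
  have hnd : ∀ x ∈ (⊤ : Submodule F (β → F)), x ≠ 0 → ∃ y ∈ (⊤ : Submodule F (β → F)), B x y ≠ 0 :=
    fun x _ hx => by obtain ⟨y, hy⟩ := T.nd x hx; exact ⟨y, trivial, hy⟩
  obtain ⟨t, -, hQt, hst⟩ := T.qf.exists_singular_not_orth ⊤ hnd (a := s) trivial hs hQs (x := s) trivial hs
  obtain ⟨t', -, hQt', hst'⟩ := T.qf.exists_singular_not_orth ⊤ hnd (a := s) trivial hs hQs (x := s') trivial hs'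
  have two_step : ∀ t, Q t = 0 → B s t ≠ 0 → B s' t ≠ 0 → Pr u' s' := by
    intro t hQt h1 h2
    obtain ⟨z, hz1, hz2⟩ := exists_mid T.sym hu hu'
    exact hPr z t u' s' hQt hQs' (hPr u s z t hQs hQt h hz1 h1) hz2 (by rw [T.qf.comm]; exact h2)
  by_cases h1 : B s' t = 0
  · by_cases h2 : B s t' = 0
    · by_cases h3 : B t t' = 0
      · refine two_step (t + t') ?_ ?_ ?_
        · rw [T.qf.add, hQt, hQt', h3]; ring
        · rw [T.qf.add_right, h2, add_zero]; exact hst
        · rw [T.qf.add_right, h1, zero_add]; exact hst'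
      · obtain ⟨z, hz⟩ := (T.sym.nondegenerate u hu).2
        have hz0 : z ≠ 0 := by
          rintro rfl
          apply hz
          have := T.sym.bilinear.smul_right 0 u 0
          simpa using this
        obtain ⟨z', hz1, hz2⟩ := exists_mid T.sym hz0 hu'
        exact hPr z' t' u' s' hQt' hQs' (hPr z t z' t' hQt hQt' (hPr u s z t hQs hQt h hz hst) hz1 h3) hz2
          (by rw [T.qf.comm]; exact hst')
    · exact two_step t' hQt' h2 hst'
  · exact two_step t hQt hst h1

end Conn

variable {F : Type*} [Field F]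

/-- transport of `GL` along a tensor structure -/
def theta {ι : Type} [Fintype ι] [DecidableEq ι] {n₁ n₂ : ℕ} (e : ι ≃ Fin n₁ × Fin n₂) (P : GL ι F) :
    GL (Fin n₁ × Fin n₂) F ≃* GL ι F := (glReindex e.symm).trans (MulAut.conj P)

lemma theta_vec {ι : Type} [Fintype ι] [DecidableEq ι] {n₁ n₂ : ℕ} (e : ι ≃ Fin n₁ × Fin n₂) (P : GL ι F)
    (g : GL (Fin n₁ × Fin n₂) F) (z : Fin n₁ × Fin n₂ → F) :
    (theta e P g : Matrix ι ι F) *ᵥ (Cfsg.Agent.H883.Tensor.vec e P z) =
      Cfsg.Agent.H883.Tensor.vec e P ((g : Matrix (Fin n₁ × Fin n₂) (Fin n₁ × Fin n₂) F) *ᵥ z) := by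
  rw [Cfsg.Agent.H883.Tensor.vec_apply, Cfsg.Agent.H883.Tensor.vec_apply]
  have h1 : theta e P g = P * glReindex e.symm g * P⁻¹ := rfl
  rw [h1, gl_mul_mulVec, gl_mul_mulVec, gl_inv_mulVec]
  congr 1
  have h2 : (glReindex e.symm g : Matrix ι ι F) =
      (g : Matrix (Fin n₁ × Fin n₂) (Fin n₁ × Fin n₂) F).submatrix e e := rfl
  rw [h2, Matrix.submatrix_mulVec_equiv]
  congr 1
  congr 1
  funext i
  simp

lemma theta_kr_mem {ι : Type} [Fintype ι] [DecidableEq ι] {n₁ n₂ : ℕ} (e : ι ≃ Fin n₁ × Fin n₂) (P : GL ι F)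
    (x : GL (Fin n₁) F × GL (Fin n₂) F) : theta e P (kr x) ∈ tensorProductSubgroup n₁ n₂ e P :=
  ⟨glReindex e.symm (kr x), ⟨kr x, ⟨x.1, x.2, rfl⟩, rfl⟩, rfl⟩

/-- **`Sp_2(q) ⊗ O_n(q)` is maximal in `Sp_{2m}(q)`**, `q` odd, `n ≥ 5`. -/
theorem tensor_two_maximal [Fintype F] {m n₂ : ℕ} (hn₂ : 5 ≤ n₂) (hodd : Odd (Fintype.card F))
    (e : (Fin m ⊕ Fin m) ≃ Fin 2 × Fin n₂) (P : Matrix.GeneralLinearGroup (Fin m ⊕ Fin m) F)
    (f₁ : (Fin 2 → F) → (Fin 2 → F) → F) (f₂ : (Fin n₂ → F) → (Fin n₂ → F) → F)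
    (hf₁ : Cfsg.Geo.IsSymplecticForm f₁) (hf₂ : Cfsg.Geo.IsSymmetricForm f₂)
    (hT : Cfsg.Geo.IsTensorFormStructure id (Cfsg.sympForm m F) f₁ f₂ e P) :
    Cfsg.Geo.IsMaximalIn (Cfsg.spGL m F) (Cfsg.Geo.tensorProductSubgroup 2 n₂ e P ⊓ Cfsg.spGL m F) := by
  classical
  have h2 : (2 : F) ≠ 0 := by
    intro h
    have h3 : ringChar F = 2 := by
      have h4 : ringChar F ∣ 2 := (ringChar.spec F 2).mp (by exact_mod_cast h)
      rcases (Nat.dvd_prime Nat.prime_two).mp h4 with h5 | h5
      · exact absurd h5 (CharP.ringChar_ne_one)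
      · exact h5
    have := FiniteField.even_card_of_char_two h3
    rw [Nat.odd_iff] at hodd
    omega
  obtain ⟨c, hc, hform⟩ := Cfsg.Agent.H883.Tensor.form_pure hf₁.bilinear hf₂.bilinear hT
  set Φ := Cfsg.Agent.H883.Tensor.vec e P with hΦ
  have hm : 1 ≤ m := by
    have := Fintype.card_congr e
    simp only [Fintype.card_sum, Fintype.card_fin, Fintype.card_prod] at this
    omega
  -- the set-up
  set f : (Fin 2 × Fin n₂ → F) → (Fin 2 × Fin n₂ → F) → F := fun x y => sympForm m F (Φ x) (Φ y) with hf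
  have hsf : IsSymplecticForm (sympForm m F) := Cfsg.Agent.H924.isSymplecticForm_sympForm
  have T : Tens f₁ (fun x => c / 2 * f₂ x x) (fun x y => c * f₂ x y) f :=
    { sym := hf₁
      qf :=
        { smul := fun a v => by
            simp only [hf₂.bilinear.smul_left, hf₂.bilinear.smul_right]; ring
          add := fun x y => by
            simp only [hf₂.bilinear.add_left, hf₂.bilinear.add_right, hf₂.symm y x]
            field_simp
            ring
          add_left := fun x y v => by simp only [hf₂.bilinear.add_left]; ring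
          smul_left := fun a x v => by simp only [hf₂.bilinear.smul_left]; ring }
      nd := fun x hx => by
        obtain ⟨y, hy⟩ := (hf₂.nondegenerate x hx).2
        exact ⟨y, mul_ne_zero hc hy⟩
      two := h2
      bil :=
        { add_left := fun x y v => by simp only [hf, map_add, hsf.bilinear.add_left]
          smul_left := fun a x v => by simp only [hf, map_smul, hsf.bilinear.smul_left]
          add_right := fun v x y => by simp only [hf, map_add, hsf.bilinear.add_right]
          smul_right := fun a v x => by simp only [hf, map_smul, hsf.bilinear.smul_right] }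
      ten := fun u w u' w' => by
        have := hform u u' w w'
        show sympForm m F (Φ (ten u w)) (Φ (ten u' w')) = f₁ u u' * (c * f₂ w w')
        rw [show sympForm m F (Φ (ten u w)) (Φ (ten u' w')) = c * (f₁ u u' * f₂ w w') from this]
        ring }
  refine Cfsg.Agent.H875.isMaximalIn_of _ ?_ ?_
  · have h3 := Cfsg.Agent.H931.spGL_not_le_tensorProductSubgroup (F := F) hm (le_refl 2) (by omega : 2 ≤ n₂) e P
    obtain ⟨g, hg, hg'⟩ := SetLike.not_le_iff_exists.mp h3
    rw [← Cfsg.Agent.H875.toGL_range] at hg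
    obtain ⟨g₀, rfl⟩ := hg
    exact ⟨g₀, hg'⟩
  intro M₀ hKM hprop
  set M : Subgroup (GL (Fin 2 × Fin n₂) F) := (M₀.map (Cfsg.Agent.H875.toGL m F)).comap (theta e P).toMonoidHom
    with hM
  have hG : Grp f₁ (fun x y => c * f₂ x y) f M :=
    { iso := by
        intro g hg v w
        obtain ⟨g₀, hg₀, hgg⟩ := hg
        have h4 := Cfsg.Agent.H875.toGL_mem_spGL (m := m) (F := F) g₀
        rw [hgg, Cfsg.Agent.H875.mem_spGL_iff] at h4
        have h5 := h4 (Φ v) (Φ w)
        show sympForm m F (Φ ((g : Matrix _ _ F) *ᵥ v)) (Φ ((g : Matrix _ _ F) *ᵥ w)) = sympForm m F (Φ v) (Φ w)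
        rw [hΦ, ← theta_vec, ← theta_vec]
        exact h5
      mem := by
        intro a b μ hμ ha hb
        -- the element is an isometry
        have h4 : theta e P (kr (a, b)) ∈ spGL m F := by
          rw [Cfsg.Agent.H875.mem_spGL_iff]
          have h5 : ∀ x y, f ((kr (a, b) : Matrix (Fin 2 × Fin n₂) (Fin 2 × Fin n₂) F) *ᵥ x)
              ((kr (a, b) : Matrix (Fin 2 × Fin n₂) (Fin 2 × Fin n₂) F) *ᵥ y) = f x y := by
            have hpt : ∀ x u' w', f ((kr (a, b) : Matrix (Fin 2 × Fin n₂) (Fin 2 × Fin n₂) F) *ᵥ x)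
                ((kr (a, b) : Matrix (Fin 2 × Fin n₂) (Fin 2 × Fin n₂) F) *ᵥ ten u' w') = f x (ten u' w') := by
              intro x u' w'
              let L1 : (Fin 2 × Fin n₂ → F) →ₗ[F] F :=
                { toFun := fun x => f ((kr (a, b) : Matrix (Fin 2 × Fin n₂) (Fin 2 × Fin n₂) F) *ᵥ x)
                    ((kr (a, b) : Matrix (Fin 2 × Fin n₂) (Fin 2 × Fin n₂) F) *ᵥ ten u' w')
                  map_add' := fun x y => by rw [Matrix.mulVec_add, T.bil.add_left]
                  map_smul' := fun r x => by rw [Matrix.mulVec_smul, T.bil.smul_left]; rfl }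
              let L2 : (Fin 2 × Fin n₂ → F) →ₗ[F] F :=
                { toFun := fun x => f x (ten u' w')
                  map_add' := fun x y => by rw [T.bil.add_left]
                  map_smul' := fun r x => by rw [T.bil.smul_left]; rfl }
              have h6 : L1 = L2 := by
                apply linearMap_ext_ten
                intro u w
                show f ((kr (a, b) : Matrix (Fin 2 × Fin n₂) (Fin 2 × Fin n₂) F) *ᵥ ten u w)
                    ((kr (a, b) : Matrix (Fin 2 × Fin n₂) (Fin 2 × Fin n₂) F) *ᵥ ten u' w') = f (ten u w) (ten u' w')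
                rw [kr_mulVec_ten, kr_mulVec_ten, T.ten, T.ten, ha, hb]
                field_simp
              exact congrArg (fun X : (Fin 2 × Fin n₂ → F) →ₗ[F] F => X x) h6
            intro x y
            let L1 : (Fin 2 × Fin n₂ → F) →ₗ[F] F :=
              { toFun := fun y => f ((kr (a, b) : Matrix (Fin 2 × Fin n₂) (Fin 2 × Fin n₂) F) *ᵥ x)
                  ((kr (a, b) : Matrix (Fin 2 × Fin n₂) (Fin 2 × Fin n₂) F) *ᵥ y)
                map_add' := fun x y => by rw [Matrix.mulVec_add, T.bil.add_right]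
                map_smul' := fun r x => by rw [Matrix.mulVec_smul, T.bil.smul_right]; rfl }
            let L2 : (Fin 2 × Fin n₂ → F) →ₗ[F] F :=
              { toFun := fun y => f x y
                map_add' := fun x y => by rw [T.bil.add_right]
                map_smul' := fun r x => by rw [T.bil.smul_right]; rfl }
            have h6 : L1 = L2 := by
              apply linearMap_ext_ten
              intro u w
              exact hpt x u w
            exact congrArg (fun X : (Fin 2 × Fin n₂ → F) →ₗ[F] F => X y) h6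
          intro u v
          have h6 := h5 (Φ.symm u) (Φ.symm v)
          have h7 : ∀ z, Φ ((kr (a, b) : Matrix (Fin 2 × Fin n₂) (Fin 2 × Fin n₂) F) *ᵥ (Φ.symm z)) =
              (theta e P (kr (a, b)) : Matrix _ _ F) *ᵥ z := by
            intro z
            rw [hΦ, ← theta_vec, LinearEquiv.apply_symm_apply]
          have h8 : sympForm m F (Φ ((kr (a, b) : Matrix (Fin 2 × Fin n₂) (Fin 2 × Fin n₂) F) *ᵥ (Φ.symm u)))
              (Φ ((kr (a, b) : Matrix (Fin 2 × Fin n₂) (Fin 2 × Fin n₂) F) *ᵥ (Φ.symm v))) =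
              sympForm m F (Φ (Φ.symm u)) (Φ (Φ.symm v)) := h6
          rw [h7, h7, LinearEquiv.apply_symm_apply, LinearEquiv.apply_symm_apply] at h8
          exact h8
        rw [← Cfsg.Agent.H875.toGL_range] at h4
        obtain ⟨g₀, hg₀⟩ := h4
        refine ⟨g₀, hKM ?_, hg₀⟩
        show Cfsg.Agent.H875.toGL m F g₀ ∈ tensorProductSubgroup 2 n₂ e P
        rw [hg₀]
        exact theta_kr_mem e P (a, b) }
  rcases T.dichotomy (by rw [Fintype.card_fin]; exact hn₂) hG with htr | htens
  · -- transvections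
    have hfull : ∀ (u : Fin 2 → F) (s : Fin n₂ → F), (c / 2 * f₂ s s = 0) →
        Cfsg.Agent.H875.Full M₀ (Φ (ten u s)) := by
      intro u s hs d
      obtain ⟨g', ⟨g₀, hg₀, hgg⟩, hact⟩ := htr d u s hs
      have h4 : g₀ = Cfsg.Agent.ClassicalGeometry.SympBasic.transv (Φ (ten u s)) d := by
        apply Subtype.ext
        apply Matrix.ext_of_mulVec_single
        intro i
        rw [Cfsg.Agent.ClassicalGeometry.SympBasic.coe_transv,
          Cfsg.Agent.ClassicalGeometry.SympBasic.sympTransvection_mulVec]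
        have h5 : (g₀ : Matrix (Fin m ⊕ Fin m) (Fin m ⊕ Fin m) F) =
            (theta e P g' : Matrix (Fin m ⊕ Fin m) (Fin m ⊕ Fin m) F) := by
          rw [← Cfsg.Agent.H875.coe_toGL, hgg]; rfl
        rw [h5]
        have h6 := theta_vec e P g' (Φ.symm (Pi.single i 1))
        rw [hact, ← hΦ, LinearEquiv.apply_symm_apply, map_add, map_smul, LinearEquiv.apply_symm_apply] at h6
        rw [h6]
        show _ + (d * sympForm m F (Φ (Φ.symm (Pi.single i 1))) (Φ (ten u s))) • _ = _
        rw [LinearEquiv.apply_symm_apply]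
      rw [← h4]
      exact hg₀
    apply Cfsg.Agent.H875.eq_top_of_full
    have hβ3 : 3 ≤ Fintype.card (Fin n₂) := by rw [Fintype.card_fin]; omega
    have hnd : ∀ x ∈ (⊤ : Submodule F (Fin n₂ → F)), x ≠ 0 →
        ∃ y ∈ (⊤ : Submodule F (Fin n₂ → F)), c * f₂ x y ≠ 0 :=
      fun x _ hx => by obtain ⟨y, hy⟩ := T.nd x hx; exact ⟨y, trivial, hy⟩
    obtain ⟨a₀, -, ha₀, hQa₀⟩ := T.qf.exists_singular h2 ⊤ hnd (by
      rw [finrank_top, Module.finrank_fintype_fun_eq_card, Fintype.card_fin]; omega)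
    set X : Set (Fin m ⊕ Fin m → F) := {x | ∃ (u : Fin 2 → F) (s : Fin n₂ → F), u ≠ 0 ∧ s ≠ 0 ∧
      c / 2 * f₂ s s = 0 ∧ x = Φ (ten u s)} with hX
    have hsp : ∀ v : Fin m ⊕ Fin m → F, v ≠ 0 → ∃ x ∈ X, sympForm m F v x ≠ 0 := by
      intro v hv
      set v' := Φ.symm v with hv'
      have hv'0 : v' ≠ 0 := by
        intro h
        apply hv
        have := congrArg Φ h
        rwa [hv', LinearEquiv.apply_symm_apply, map_zero] at this
      obtain ⟨⟨i, j⟩, hij⟩ := Function.ne_iff.mp hv'0
      have hrow : (fun j => v' (i, j)) ≠ 0 := fun h => hij (congrFun h j)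
      obtain ⟨s, -, hQs, hs⟩ := T.qf.exists_singular_not_orth ⊤ hnd (a := a₀) trivial ha₀ hQa₀
        (x := fun j => v' (i, j)) trivial hrow
      have hR : R (fun x y => c * f₂ x y) s v' ≠ 0 := by
        intro h
        have h4 := congrFun h i
        rw [T.R_coord] at h4
        apply hs
        have h5 := T.qf.comm (fun j => v' (i, j)) s
        rw [h5]
        exact h4
      obtain ⟨u, hu⟩ := (T.sym.nondegenerate _ hR).2
      have hu0 : u ≠ 0 := by
        rintro rfl
        apply hu
        have := T.sym.bilinear.smul_right 0 (R (fun x y => c * f₂ x y) s v') 0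
        simpa using this
      have hs0 : s ≠ 0 := by
        rintro rfl
        apply hs
        exact T.qf.zero_right _
      refine ⟨Φ (ten u s), ⟨u, s, hu0, hs0, hQs, rfl⟩, ?_⟩
      rw [← T.form_R] at hu
      have h6 : f v' (ten u s) = sympForm m F v (Φ (ten u s)) := by
        show sympForm m F (Φ v') (Φ (ten u s)) = _
        rw [hv', LinearEquiv.apply_symm_apply]
      rwa [h6] at hu
    refine Cfsg.Agent.H875.full_of_connected (M := M₀) ⟨1, one_ne_zero, ?_⟩ X ?_ hsp ?_
    · intro h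
      apply h2
      linear_combination h
    · rintro x ⟨u, s, -, -, hs, rfl⟩
      exact hfull u s hs
    · intro W hW0 hW1
      by_contra hcon
      push Not at hcon
      -- either `x ∈ W` or `x ⟂ W`
      have hdich : ∀ x ∈ X, x ∈ W ∨ ∀ w ∈ W, sympForm m F w x = 0 := by
        intro x hx
        by_cases h : x ∈ W
        · exact Or.inl h
        · exact Or.inr (hcon x hx h)
      by_cases hex : ∃ (u : Fin 2 → F) (s : Fin n₂ → F), u ≠ 0 ∧ s ≠ 0 ∧ c / 2 * f₂ s s = 0 ∧ Φ (ten u s) ∈ W
      · obtain ⟨u, s, hu, hs, hQs, hin⟩ := hex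
        have hall : ∀ x ∈ X, x ∈ W := by
          rintro x ⟨u', s', hu', hs', hQs', rfl⟩
          refine T.conn hβ3 (fun u s => Φ (ten u s) ∈ W) ?_ hu hs hQs hin hu' hs' hQs'
          intro u s u' t hQs hQt hin huu hst
          have hu'0 : u' ≠ 0 := by
            rintro rfl
            apply huu
            have := T.sym.bilinear.smul_right 0 u 0
            simpa using this
          have ht0 : t ≠ 0 := by
            rintro rfl
            exact hst (T.qf.zero_right _)
          rcases hdich _ ⟨u', t, hu'0, ht0, hQt, rfl⟩ with h | h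
          · exact h
          · exfalso
            have h4 := h _ hin
            have h5 : sympForm m F (Φ (ten u s)) (Φ (ten u' t)) = f₁ u u' * (c * f₂ s t) := T.ten u s u' t
            rw [h5] at h4
            exact mul_ne_zero huu hst h4
        -- W is everything
        apply hW1
        by_contra hWt
        have h4 := Cfsg.Agent.H924.finrank_perpOf Cfsg.Agent.H924.hermForm_sympForm W
        have h5 : Cfsg.Agent.H924.perpOf Cfsg.Agent.H924.hermForm_sympForm W ≠ ⊥ := by
          intro h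
          rw [h, finrank_bot] at h4
          have h6 := Submodule.finrank_lt hWt
          rw [Module.finrank_fintype_fun_eq_card] at h6
          omega
        obtain ⟨v, hv, hv0⟩ := (Submodule.ne_bot_iff _).mp h5
        obtain ⟨x, hx, hvx⟩ := hsp v hv0
        rw [Cfsg.Agent.H924.mem_perpOf] at hv
        exact hvx (hv x (hall x hx))
      · push Not at hex
        apply hW0
        rw [Submodule.eq_bot_iff]
        intro w hw
        by_contra hw0
        obtain ⟨x, hx, hwx⟩ := hsp w hw0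
        obtain ⟨u, s, hu, hs, hQs, rfl⟩ := hx
        rcases hdich _ ⟨u, s, hu, hs, hQs, rfl⟩ with h | h
        · exact hex u s hu hs hQs h
        · exact hwx (h w hw)
  · -- tensors
    exfalso
    obtain ⟨g, hg, hgK⟩ := hprop
    apply hgK
    have h4 : (theta e P).symm (Cfsg.Agent.H875.toGL m F g) ∈ M := by
      refine ⟨g, hg, ?_⟩
      show _ = theta e P ((theta e P).symm _)
      rw [MulEquiv.apply_symm_apply]
    obtain ⟨x, hx⟩ := htens _ h4
    have h5 := theta_kr_mem e P x
    rw [hx, MulEquiv.apply_symm_apply] at h5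
    exact h5

end Cfsg.Agent.H924.Ten
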